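import Cfsg.Agent.H63.AnDefs2
import Cfsg.Agent.H8.SylowIn

/-!
The centraliser of `Alt({a,b}ᶜ)` has dihedral Sylow subgroups of order eight.
-/

set_option autoImplicit false

namespace Cfsg.Agent.H24.AnI5

open Cfsg Cfsg.Agent.H63 Cfsg.Agent.H63.SL Cfsg.Agent.H63.AN Subgroup
open Cfsg.Agent.H7.AA (ev d2 Acts KA NA)
open Cfsg.Agent.H78 (c3 altOn symOn)
open Equiv (swap Perm)
open Equiv.Perm (sign)
open scoped Pointwise

universe u

section abs

variable {G : Type u} [Group G]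

/-- two commuting involutions interchanged by a third one -/
structure D8 (t d w : G) : Prop where
  tt : t * t = 1
  ww : w * w = 1
  dt : d * t = t * d
  wt : w * t * w⁻¹ = d

namespace D8

variable {t d w : G} (h : D8 t d w)
include h

theorem wi : w⁻¹ = w := inv_eq_of_mul_eq_one_right h.ww

theorem dd : d * d = 1 := by
  rw [← h.wt]
  calc w * t * w⁻¹ * (w * t * w⁻¹) = w * (t * t) * w⁻¹ := by group
    _ = 1 := by rw [h.tt]; group

theorem wd : w * d * w⁻¹ = t := by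
  rw [← h.wt]
  calc w * (w * t * w⁻¹) * w⁻¹ = (w * w) * t * (w * w)⁻¹ := by group
    _ = t := by rw [h.ww]; group

theorem wu : w * (t * d) * w⁻¹ = t * d := by
  calc w * (t * d) * w⁻¹ = w * t * w⁻¹ * (w * d * w⁻¹) := by group
    _ = _ := by rw [h.wt, h.wd, h.dt]

theorem ttx (x : G) : t * (t * x) = x := by rw [← mul_assoc, h.tt, one_mul]
theorem ddx (x : G) : d * (d * x) = x := by rw [← mul_assoc, h.dd, one_mul]
theorem dtx (x : G) : d * (t * x) = t * (d * x) := by rw [← mul_assoc, h.dt, mul_assoc]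

theorem sqE {x : G} (hx : x = 1 ∨ x = t ∨ x = d ∨ x = t * d) : x * x = 1 := by
  rcases hx with rfl | rfl | rfl | rfl <;> simp [mul_assoc, h.tt, h.dd, h.dtx]

/-- the four-group -/
def E : Subgroup G where
  carrier := {x | x = 1 ∨ x = t ∨ x = d ∨ x = t * d}
  one_mem' := .inl rfl
  mul_mem' := by
    intro x y hx hy
    rcases hx with e | e | e | e <;> rcases hy with e' | e' | e' | e' <;> rw [e, e'] <;>
      simp [mul_assoc, h.tt, h.dd, h.dt, h.ttx, h.dtx]
  inv_mem' := fun hx => by rwa [inv_eq_of_mul_eq_one_right (h.sqE hx)]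

theorem mem_E {x : G} : x ∈ h.E ↔ x = 1 ∨ x = t ∨ x = d ∨ x = t * d := Iff.rfl

theorem cjE {x : G} (hx : x ∈ h.E) : w * x * w⁻¹ ∈ h.E := by
  rcases hx with e | e | e | e <;> rw [e]
  · simp
  · exact .inr (.inr (.inl h.wt))
  · exact .inr (.inl h.wd)
  · exact .inr (.inr (.inr h.wu))

/-- the dihedral group -/
def S : Subgroup G where
  carrier := {x | x ∈ h.E ∨ w * x ∈ h.E}
  one_mem' := .inl (one_mem _)
  mul_mem' := by
    rintro x y (hx | hx) (hy | hy)
    · exact .inl (mul_mem hx hy)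
    · exact .inr (by convert mul_mem (h.cjE hx) hy using 1; group)
    · exact .inr (by convert mul_mem hx hy using 1; group)
    · refine .inl ?_
      convert mul_mem (h.cjE hx) hy using 1
      calc x * y = (w * w) * x * y := by rw [h.ww, one_mul]
        _ = _ := by group
  inv_mem' := by
    rintro x (hx | hx)
    · exact .inl (inv_mem hx)
    · refine .inr ?_
      convert h.cjE (inv_mem hx) using 1
      calc w * x⁻¹ = w * x⁻¹ * (w * w)⁻¹ := by rw [h.ww]; group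
        _ = _ := by group

theorem mem_S {x : G} : x ∈ h.S ↔ x ∈ h.E ∨ w * x ∈ h.E := Iff.rfl

theorem cases {x : G} (hx : x ∈ h.S) : x = 1 ∨ x = t ∨ x = d ∨ x = t * d ∨ x = w ∨ x = w * t ∨
    x = w * d ∨ x = w * (t * d) := by
  have e : x = w * (w * x) := by rw [← mul_assoc, h.ww, one_mul]
  rcases hx with (c | c | c | c) | (c | c | c | c)
  · exact .inl c
  · exact .inr (.inl c)
  · exact .inr (.inr (.inl c))
  · exact .inr (.inr (.inr (.inl c)))
  all_goals rw [c] at e; simp [e]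

theorem t_mem : t ∈ h.S := .inl (.inr (.inl rfl))
theorem d_mem : d ∈ h.S := .inl (.inr (.inr (.inl rfl)))
theorem w_mem : w ∈ h.S := .inr (.inl h.ww)

theorem le {W : Subgroup G} (ht : t ∈ W) (hd : d ∈ W) (hw : w ∈ W) : h.S ≤ W := fun x hx => by
  rcases h.cases hx with e | e | e | e | e | e | e | e <;> rw [e]
  exacts [one_mem _, ht, hd, mul_mem ht hd, hw, mul_mem hw ht, mul_mem hw hd,
    mul_mem hw (mul_mem ht hd)]

theorem pg : IsPGroup 2 h.S := by
  rintro ⟨x, hx⟩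
  refine ⟨2, Subtype.ext ?_⟩
  change x ^ 2 ^ 2 = 1
  rw [show x ^ 2 ^ 2 = x * x * (x * x) by rw [← pow_two, ← pow_two, ← pow_mul]; rfl]
  rcases hx with hx | hx
  · rw [h.sqE hx, mul_one]
  · refine h.sqE (x := x * x) ?_
    have := mul_mem (h.cjE hx) hx
    rw [show w * (w * x) * w⁻¹ * (w * x) = (w * w) * (x * x) by group, h.ww, one_mul] at this
    exact this

theorem card_le : Nat.card h.S ≤ 8 := by
  classical
  have : (h.S : Set G) ⊆ ↑([1, t, d, t * d, w, w * t, w * d, w * (t * d)] : List G).toFinset :=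
    fun x hx => by simpa using h.cases hx
  refine le_trans (Set.ncard_le_ncard this) ?_
  rw [Set.ncard_coe_finset]
  exact List.toFinset_card_le _

theorem sq_wt : w * t * (w * t) = t * d := by
  calc w * t * (w * t) = w * t * w⁻¹ * t := by rw [h.wi]; group
    _ = _ := by rw [h.wt, h.dt]

theorem sq_wd : w * d * (w * d) = t * d := by
  calc w * d * (w * d) = w * d * w⁻¹ * d := by rw [h.wi]; group
    _ = _ := by rw [h.wd]

/-- the involutions of the dihedral group -/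
theorem inv_cases (u1 : t * d ≠ 1) {x : G} (hx : x ∈ h.S) (x2 : x * x = 1) (x1 : x ≠ 1) :
    x = t ∨ x = d ∨ x = t * d ∨ x = w ∨ x = w * (t * d) := by
  rcases h.cases hx with e | e | e | e | e | e | e | e
  · exact absurd e x1
  · exact .inl e
  · exact .inr (.inl e)
  · exact .inr (.inr (.inl e))
  · exact .inr (.inr (.inr (.inl e)))
  · rw [e, h.sq_wt] at x2; exact absurd x2 u1
  · rw [e, h.sq_wd] at x2; exact absurd x2 u1
  · exact .inr (.inr (.inr (.inr e)))

theorem sylow [Finite G] {W : Subgroup G} (ht : t ∈ W) (hd : d ∈ W) (hw : w ∈ W) (t1 : t ≠ 1)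
    (u1 : t * d ≠ 1) (i0 : ¬ IsConj t (t * d)) (i2 : ∀ e, IsConj t e → e * t * e⁻¹ ≠ d)
    (ce : ∀ x ∈ W, Is2 x → Commute x t → Commute x d → x ∈ h.E) : H8.IsSylowIn 2 h.S W := by
  have : Fact (Nat.Prime 2) := ⟨Nat.prime_two⟩
  refine H8.isSylowIn_of_maximal (h.le ht hd hw) h.pg fun Q hQ QW SQ => ?_
  by_contra hn
  obtain ⟨s, hs, ns⟩ := SetLike.exists_of_lt
    (H8.lt_inf_normalizer_of_lt hQ (lt_of_le_of_ne SQ fun e => hn e.ge))
  obtain ⟨sQ, sN⟩ := mem_inf.1 hs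
  have is2 : ∀ x ∈ Q, Is2 x := fun x hx => by
    obtain ⟨k, hk⟩ := hQ ⟨x, hx⟩
    exact ⟨k, congrArg Subtype.val hk⟩
  have key : ∀ x ∈ h.S, IsConj t x → s * x * s⁻¹ = t ∨ s * x * s⁻¹ = d := fun x hx cx => by
    have c : IsConj t (s * x * s⁻¹) := cx.trans (isConj_iff.2 ⟨s, rfl⟩)
    obtain ⟨g, hg⟩ := isConj_iff.1 c
    have x2 : s * x * s⁻¹ * (s * x * s⁻¹) = 1 := by
      rw [← hg]
      calc g * t * g⁻¹ * (g * t * g⁻¹) = g * (t * t) * g⁻¹ := by group
        _ = 1 := by rw [h.tt]; group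
    rcases h.inv_cases u1 ((mem_normalizer_iff.1 sN x).1 hx) x2
      (fun e => t1 (by rw [e] at c; exact isConj_one_left.1 c)) with e | e | e | e | e
    · exact .inl e
    · exact .inr e
    · exact absurd (e ▸ c) i0
    · exact absurd h.wt (i2 w (e ▸ c))
    · refine absurd ?_ (i2 _ (e ▸ c))
      calc w * (t * d) * t * (w * (t * d))⁻¹ = w * (t * (d * t) * d⁻¹ * t⁻¹) * w⁻¹ := by group
        _ = w * t * w⁻¹ := by rw [h.dt]; group
        _ = d := h.wt
  have td : t ≠ d := fun e => u1 (by rw [← e, h.tt])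
  have inj : s * t * s⁻¹ ≠ s * d * s⁻¹ := fun e => td (by simpa using e)
  have cm : ∀ {a b : G}, a * b * a⁻¹ = b → Commute a b := fun e => mul_inv_eq_iff_eq_mul.1 e
  rcases key t h.t_mem (IsConj.refl t) with e | e <;>
    rcases key d h.d_mem (isConj_iff.2 ⟨w, h.wt⟩) with e' | e'
  · exact inj (e.trans e'.symm)
  · exact ns (.inl (ce s (QW sQ) (is2 s sQ) (cm e) (cm e')))
  · refine ns (.inr (ce _ (mul_mem hw (QW sQ)) (is2 _ (mul_mem (SQ h.w_mem) sQ)) (cm ?_) (cm ?_)))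
    · calc w * s * t * (w * s)⁻¹ = w * (s * t * s⁻¹) * w⁻¹ := by group
        _ = t := by rw [e, h.wd]
    · calc w * s * d * (w * s)⁻¹ = w * (s * d * s⁻¹) * w⁻¹ := by group
        _ = d := by rw [e', h.wt]
  · exact inj (e.trans e'.symm)

end D8

end abs

section perm

variable {α : Type} [Fintype α] [DecidableEq α]

theorem fix_out (h9 : 9 ≤ Fintype.card α) {a b : α} {ρ : Perm α}
    (h : ∀ σ ∈ altOn ({a, b}ᶜ : Finset α), ρ * σ = σ * ρ) {x : α} (xa : x ≠ a) (xb : x ≠ b) :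
    ρ x = x := by
  have c : 2 < (({a, b, x} : Finset α)ᶜ).card := by
    have := Finset.card_le_three (a := a) (b := b) (c := x)
    rw [Finset.card_compl]
    omega
  obtain ⟨p, q, r, hp, hq, hr, pq, pr, qr⟩ := Finset.two_lt_card_iff.1 c
  simp only [Finset.mem_compl, Finset.mem_insert, Finset.mem_singleton, not_or] at hp hq hr
  have m : ∀ {y : α}, y ≠ a → y ≠ b → y ∈ ({a, b}ᶜ : Finset α) := fun e1 e2 => by simp [e1, e2]
  exact (H7.AA.fix_of_comm_c3 (a := x) (b := p) (c := q) (d := r)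
    (H7.AA.nodup4.2 ⟨Ne.symm hp.2.2, Ne.symm hq.2.2, Ne.symm hr.2.2, pq, pr, qr⟩)
    (h _ (H78.c3_mem_altOn (m xa xb) (m hp.1 hp.2.1) (m hq.1 hq.2.1) (Ne.symm hp.2.2) pq))
    (h _ (H78.c3_mem_altOn (m xa xb) (m hp.1 hp.2.1) (m hr.1 hr.2.1) (Ne.symm hp.2.2) pr))).1

omit [Fintype α] in
theorem one_or_swap {a b : α} (ab : a ≠ b) {ρ : Perm α} (h : ∀ x, x ≠ a → x ≠ b → ρ x = x) :
    ρ = 1 ∨ ρ = swap a b := by
  have k : ∀ y, y = a ∨ y = b → ρ y = a ∨ ρ y = b := fun y hy => by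
    by_contra c
    rw [not_or] at c
    have := ρ.injective (h _ c.1 c.2)
    rw [this] at c
    exact hy.elim c.1 c.2
  have inj : ρ a ≠ ρ b := fun e => ab (ρ.injective e)
  rcases k a (.inl rfl) with e | e <;> rcases k b (.inr rfl) with e' | e'
  · exact absurd (e.trans e'.symm) inj
  · refine .inl (Equiv.ext fun x => ?_)
    by_cases xa : x = a
    · rw [xa, e]; rfl
    by_cases xb : x = b
    · rw [xb, e']; rfl
    exact h x xa xb
  · refine .inr (Equiv.ext fun x => ?_)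
    by_cases xa : x = a
    · rw [xa, e, Equiv.swap_apply_left]
    by_cases xb : x = b
    · rw [xb, e', Equiv.swap_apply_right]
    rw [h x xa xb, Equiv.swap_apply_of_ne_of_ne xa xb]
  · exact absurd (e.trans e'.symm) inj

end perm

theorem i5 (i1 : I1Stmt.{u}) (i2 : I2Stmt.{u}) (i4 : I4Stmt.{u}) : I5Stmt.{u} := by
  intro G _ _ α _ _ ψ t bs kit fr j ci cig a b ab X gl
  have : Fact (Nat.Prime 2) := ⟨Nat.prime_two⟩
  have tX := i1 ψ t bs kit fr j ci cig a b ab X gl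
  have h2 : ∀ e, IsConj t e → e * t * e⁻¹ ≠ j (swap a b) := i2 ψ t bs kit fr j ci cig a b ab
  obtain ⟨w, y, v⟩ := i4 ψ t bs kit fr j ci cig a b ab X gl
  have da := ci.sec.ac (swap a b)
  have dt := ci.sec.cm (swap a b)
  have dc := ci.cj a b ab
  have i0 := ci.i0 a b ab
  have h5 : 5 ≤ Fintype.card α := le_trans (by decide) bs.nine
  generalize j (swap a b) = d at h2 v da dt dc i0 ⊢
  have h : D8 t d w := ⟨bs.t2, v.w2, dt.eq, v.wt⟩
  have mW : ∀ {x : G}, x ∈ C[LS ψ {a, b}ᶜ] ↔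
      ∀ σ ∈ altOn ({a, b}ᶜ : Finset α), x * ev ψ σ = ev ψ σ * x := fun {x} => by
    rw [mem_centralizer_iff]
    constructor
    · exact fun e σ hσ => (e _ (mem_LS.2 ⟨σ, hσ, rfl⟩)).symm
    · intro e g hg
      obtain ⟨σ, hσ, rfl⟩ := mem_LS.1 hg
      exact (e σ hσ).symm
  have tW : t ∈ C[LS ψ {a, b}ᶜ] := mW.2 fun σ _ => H7.AA.KA_ev bs.tK σ
  have dW : d ∈ C[LS ψ {a, b}ᶜ] := mW.2 fun σ hσ => da.comm (H78.mem_altOn.1 hσ).2
    (H78.commute_of_mem_symOn (X := {a, b}) disjoint_compl_right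
      (H78.swap_mem_symOn (by simp) (by simp)) (mem_inf.1 hσ).1).eq
  have u1 : t * d ≠ 1 := fun e => by
    have e1 : d = t := by rw [← h.ttx d, e, mul_one]
    have := da.eq_of h5 bs.inj (e1 ▸ bs.tK)
    exact ab (Equiv.swap_eq_one_iff.1 this)
  have syl := h.sylow tW dW v.wA bs.t1 u1 i0 h2 fun x hx x2 xt xd => by
    obtain ⟨ρ, hρ⟩ := kit.act x xt
    rcases one_or_swap ab (ρ := ρ) (fun z za zb => fix_out bs.nine (fun σ hσ =>
      hρ.comm_perm bs.inj (H78.mem_altOn.1 hσ).2 (mW.1 hx σ hσ)) za zb) with e | e <;>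
      rw [e] at hρ
    · rcases bs.r2 x hρ.KA xt x2 with e1 | e1
      exacts [.inl e1, .inr (.inl e1)]
    · have a1 := hρ.mul da
      rw [Equiv.swap_mul_self] at a1
      obtain ⟨k, hk⟩ := x2
      have ex : x = x * d * d := by rw [mul_assoc, h.dd, mul_one]
      rcases bs.r2 _ a1.KA (xt.mul_left dt) ⟨k + 1, by
        rw [xd.mul_pow, pow_succ, pow_mul x, hk, one_pow, one_mul, pow_mul', pow_two, h.dd,
          one_pow]⟩ with e1 | e1 <;> rw [e1] at ex
      exacts [.inr (.inr (.inl (ex.trans (one_mul d)))), .inr (.inr (.inr ex))]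
  refine ⟨fun P PW hP => ?_, fun e eX eW e2 e1 => ?_⟩
  · obtain ⟨c, -, hc⟩ := syl.exists_conj_le hP PW
    rw [← H8.card_conj_smul P c]
    exact (card_le_of_le hc).trans h.card_le
  · have hp : IsPGroup 2 (zpowers e) := by
      rintro ⟨_, k, rfl⟩
      exact ⟨1, Subtype.ext (by
        change (e ^ k) ^ 2 ^ 1 = 1
        rw [pow_one, ← zpow_natCast, ← zpow_mul, mul_comm, zpow_mul, zpow_natCast, pow_two, e2,
          one_zpow])⟩
    obtain ⟨c, cW, hc⟩ := syl.exists_conj_le hp (zpowers_le.2 eW)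
    have m := hc (H8.conj_mem_conj_smul.2 (mem_zpowers e))
    have cN : c⁻¹ ∈ N[LS ψ {a, b}ᶜ] := inv_mem (centralizer_le_normalizer _ cW)
    have mX : c * e * c⁻¹ ∈ X := gl.nrm.conj_mem e eX c
    have fin : ∀ g ∈ N[LS ψ {a, b}ᶜ], c * e * c⁻¹ = g * (t * d) * g⁻¹ →
        ∃ c ∈ N[LS ψ {a, b}ᶜ], c * (t * d) * c⁻¹ = e := fun g hg q =>
      ⟨c⁻¹ * g, mul_mem cN hg, by
        calc c⁻¹ * g * (t * d) * (c⁻¹ * g)⁻¹ = c⁻¹ * (g * (t * d) * g⁻¹) * c := by group
          _ = e := by rw [← q]; group⟩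
    rcases h.inv_cases u1 m (by
      calc c * e * c⁻¹ * (c * e * c⁻¹) = c * (e * e) * c⁻¹ := by group
        _ = 1 := by rw [e2]; group) (fun q => e1 (by simpa using q)) with q | q | q | q | q
    · exact absurd (q ▸ mX) tX
    · refine absurd ?_ tX
      rw [← h.wd]
      exact gl.nrm.conj_mem d (q ▸ mX) w
    · exact fin 1 (one_mem _) (by rw [q]; group)
    · exact fin y v.yA (by rw [q, v.yu])
    · refine fin (y * y) (mul_mem v.yA v.yA) ?_
      rw [q, ← v.yw, ← v.yu]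
      group

theorem eqns_AnI5 : True := by
  have := @D8.E.eq_1.{0}
  have := @D8.S.eq_1.{0}
  trivial

end Cfsg.Agent.H24.AnI5
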