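import Cfsg.Agent.H21.DSDefs
import Cfsg.Agent.H12.Triple

/-!
# The central extension of a character triple, with control of the primes of the kernel
-/

set_option autoImplicit false

namespace Cfsg.Agent.H24.DsE

open Module Cfsg Cfsg.Agent.H12 Cfsg.Agent.H21.DS

universe u

theorem exists_cext {G : Type u} [Group G] [Finite G] (N : Subgroup G)
    [hN : N.Normal] {θ : N → ℂ} (hθ : IsIrrCharacter N θ)
    (hinv : ∀ (g : G) (n : N), θ ⟨g * n * g⁻¹, hN.conj_mem (n : G) n.2 g⟩ = θ n) :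
    ∃ (Γ : Type u) (_ : Group Γ) (_ : Finite Γ) (π : Γ →* G) (s : N →* Γ) (θ' : Γ → ℂ),
      Function.Surjective π ∧ π.ker ≤ Subgroup.center Γ ∧ (∀ n, π (s n) = n) ∧
      (∀ (x : Γ) (n : N), x * s n * x⁻¹ = s (MulAut.conjNormal (π x) n)) ∧
      IsIrrCharacter Γ θ' ∧ (∀ n, θ' (s n) = θ n) ∧
      ∀ z ∈ π.ker, z ^ (Nat.card N * Nat.card N) = 1 := by
  classical
  obtain ⟨k, ρ, hρ, rfl⟩ := id hθ
  have hV := H11.nontrivial_of_isIrreducible ρ
  have hd : 0 < finrank ℂ (Fin k → ℂ) := finrank_pos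
  let E := (Module.End ℂ (Fin k → ℂ))ˣ
  let ι : ℂˣ →* E := Units.map (algebraMap ℂ (Module.End ℂ (Fin k → ℂ))).toMonoidHom
  have hιv : ∀ a, (ι a : Module.End ℂ (Fin k → ℂ)) = (a : ℂ) • LinearMap.id := fun a =>
    Algebra.algebraMap_eq_smul_one _
  have hc : ∀ a e, ι a * e = e * ι a := fun a e =>
    Units.ext (Algebra.commutes (a : ℂ) (e : Module.End ℂ (Fin k → ℂ)))
  let D : E →* ℂˣ := Units.map (LinearMap.det (A := ℂ))
  have hDι : ∀ a, D (ι a) = a ^ finrank ℂ (Fin k → ℂ) := fun a => Units.ext (by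
    change LinearMap.det (ι a : Module.End ℂ (Fin k → ℂ)) = _
    rw [hιv, LinearMap.det_smul]; simp)
  let R : N →* E := ρ.toHomUnits
  let Γ := extGroup N ρ
  let π : Γ →* G := (MonoidHom.fst _ _).comp Γ.subtype
  let τ : Γ →* E := (MonoidHom.snd _ _).comp Γ.subtype
  let s : N →* Γ := (N.subtype.prod R).codRestrict Γ fun n => ⟨fun m => by
      change R n * R m = R (MulAut.conjNormal (n : G) m) * R n
      rw [← map_mul, ← map_mul]
      congr 1
      apply Subtype.ext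
      simp, by
      change D (R n) ^ Nat.card N = 1
      rw [← map_pow, ← map_pow, pow_card_eq_one', map_one, map_one]⟩
  let σ : Representation ℂ Γ (Fin k → ℂ) := (Units.coeHom _).comp τ
  have hker : ∀ z : Γ, π z = 1 → ∃ c : ℂˣ, τ z = ι c := by
    intro z hz
    have h1 := z.2.1
    have h2 : z.1.1 = 1 := hz
    simp only [h2, map_one, MulAut.one_apply] at h1
    obtain ⟨c, hcs⟩ := H11.exists_eq_smul_id_of_commute ρ (τ z : Module.End ℂ (Fin k → ℂ))
      (fun n => congrArg Units.val (h1 n))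
    have hc0 : c ≠ 0 := by
      rintro rfl
      rw [zero_smul] at hcs
      exact Units.ne_zero _ hcs
    exact ⟨Units.mk0 c hc0, Units.ext (by rw [hcs, hιv]; rfl)⟩
  have hext : ∀ x y : Γ, π x = π y → τ x = τ y → x = y := fun x y h1 h2 =>
    Subtype.ext (Prod.ext h1 h2)
  have hfin : Finite Γ := by
    refine π.finite_iff_finite_ker_range.mpr ⟨?_, inferInstance⟩
    choose c hcz using fun z : π.ker => hker z.1 z.2
    have hm : NeZero (finrank ℂ (Fin k → ℂ) * Nat.card N) :=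
      ⟨Nat.mul_ne_zero hd.ne' Nat.card_pos.ne'⟩
    refine Finite.of_injective
      (fun z : π.ker => (⟨c z, ?_⟩ : rootsOfUnity (finrank ℂ (Fin k → ℂ) * Nat.card N) ℂ)) ?_
    · rw [mem_rootsOfUnity, pow_mul, ← hDι, ← hcz]
      exact z.1.2.2
    · intro z w h
      have h1 : c z = c w := congrArg Subtype.val h
      exact Subtype.ext (hext _ _ (z.2.trans w.2.symm) (by rw [hcz, hcz, h1]))
  refine ⟨Γ, inferInstance, hfin, π, s, σ.character, fun g => ?_, fun z hz => ?_, fun n => rfl,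
    fun x n => ?_, ?_, fun n => rfl, ?_⟩
  · obtain ⟨T, hT⟩ := H23.exists_intertwiner ρ (MulAut.conjNormal g) (hinv g)
    obtain ⟨z, hz⟩ := IsAlgClosed.exists_pow_nat_eq (((D T)⁻¹ : ℂˣ) : ℂ) hd
    have hz0 : z ≠ 0 := by
      rintro rfl
      rw [zero_pow hd.ne'] at hz
      exact Units.ne_zero _ hz.symm
    refine ⟨⟨(g, ι (Units.mk0 z hz0) * T), fun n => ?_, ?_⟩, rfl⟩
    · change ι _ * T * R n = R (MulAut.conjNormal g n) * (ι _ * T)
      rw [mul_assoc, show T * R n = R (MulAut.conjNormal g n) * T from Units.ext (hT n),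
        ← mul_assoc, hc, mul_assoc]
    · change D (ι _ * T) ^ _ = 1
      rw [map_mul, hDι, show Units.mk0 z hz0 ^ finrank ℂ (Fin k → ℂ) = (D T)⁻¹ from Units.ext hz,
        inv_mul_cancel, one_pow]
  · obtain ⟨c, hcz⟩ := hker z hz
    rw [Subgroup.mem_center_iff]
    intro x
    refine hext _ _ ?_ ?_
    · rw [map_mul, map_mul, MonoidHom.mem_ker.mp hz, mul_one, one_mul]
    · rw [map_mul, map_mul, hcz, hc]
  · refine hext _ _ ?_ ?_
    · simp only [map_mul, map_inv]
      rfl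
    · rw [map_mul, map_mul, map_inv, mul_inv_eq_iff_eq_mul]
      exact x.2.1 n
  · exact H11.isIrrCharacter_of_comp (H11.isCharacter_character σ) s hθ
  · intro z hz
    obtain ⟨c, hcz⟩ := hker z hz
    obtain ⟨e, he⟩ := finrank_dvd_card ρ
    have h1 : c ^ (finrank ℂ (Fin k → ℂ) * Nat.card N) = 1 := by
      rw [pow_mul, ← hDι, ← hcz]
      exact z.2.2
    have h2 : c ^ (Nat.card N * Nat.card N) = 1 := by
      have h3 : Nat.card N * Nat.card N = finrank ℂ (Fin k → ℂ) * Nat.card N * e := by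
        rw [mul_right_comm, ← he]
      rw [h3, pow_mul, h1, one_pow]
    refine hext _ _ ?_ ?_
    · rw [map_pow, MonoidHom.mem_ker.mp hz, one_pow, map_one]
    · rw [map_pow, hcz, ← map_pow, h2, map_one, map_one]

theorem cext : CextStmt.{u} := by
  intro G _ _ N hN θ hθ
  obtain ⟨Γ, i1, i2, π, s, θ', h1, h2, h3, h4, h5, h6, h7⟩ := exists_cext N θ.2 (fun g n => by
    rw [← H22.cjIrr_inv_apply, hθ])
  refine ⟨Γ, i1, i2, π, s, ⟨θ', h5⟩, h1, h2, h3, h4, h6, fun p hp hd => ?_⟩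
  have := Fact.mk hp
  obtain ⟨z, hz⟩ := exists_prime_orderOf_dvd_card' (G := π.ker) p hd
  have h8 : z ^ (Nat.card N * Nat.card N) = 1 := Subtype.ext (h7 z.1 z.2)
  have h9 := orderOf_dvd_of_pow_eq_one h8
  rw [hz] at h9
  exact ((Nat.Prime.dvd_mul hp).1 h9).elim id id

end Cfsg.Agent.H24.DsE
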