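import Cfsg.Agent.H24.DsCext
import Cfsg.Agent.H58.LinL

/-!
# The correspondent of an extendible character extends
-/

set_option autoImplicit false

namespace Cfsg.Agent.H24.DsE

open Cfsg Matrix Cfsg.Agent.H19 Cfsg.Agent.H17 Cfsg.Agent.H21.DS Cfsg.Agent.H22
open scoped ComplexConjugate

universe u

theorem orth_of_schur {G : Type u} [Group G] [Fintype G] {R : Type} [CommRing R] {d : ℕ}
    (ρ : G →* Mat d R) (h : ∀ T : Mat d R, (∀ g, T * ρ g = ρ g * T) → ∃ c : R, T = c • 1) :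
    Orth ρ := by
  intro i j k l
  obtain ⟨c, hc⟩ := h (∑ g, ρ g⁻¹ * single j k 1 * ρ g) fun x => by
    rw [Finset.sum_mul, Finset.mul_sum]
    refine Fintype.sum_equiv (Equiv.mulRight x) _ _ fun g => ?_
    simp only [Equiv.coe_mulRight, ← mul_assoc, ← map_mul]
    rw [mul_assoc, ← map_mul, _root_.mul_inv_rev, mul_inv_cancel_left]
  have h1 : (d : R) * c = if j = k then (Fintype.card G : R) else 0 := by
    have h2 := congrArg Matrix.trace hc
    rw [trace_smul, trace_one, Fintype.card_fin, trace_sum, smul_eq_mul, mul_comm] at h2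
    rw [← h2, Finset.sum_congr rfl (g := fun _ => (single j k (1 : R) : Mat d R).trace) fun g _ => by
      rw [trace_mul_cycle, ← map_mul, mul_inv_cancel, map_one, one_mul]]
    split_ifs with hjk
    · subst hjk
      simp
    · simp [trace_single_eq_of_ne _ _ _ hjk]
  have h3 : ∑ g, ρ g⁻¹ i j * ρ g k l = c * if i = l then 1 else 0 := by
    have h2 := congrFun (congrFun hc i) l
    rw [Matrix.sum_apply, Matrix.smul_apply, one_apply, smul_eq_mul] at h2
    rw [← h2]
    refine Finset.sum_congr rfl fun g _ => ?_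
    rw [mul_apply, Finset.sum_eq_single k]
    · rw [mul_single_apply_same, mul_one]
    · intro b _ hb
      rw [mul_single_apply_of_ne _ _ _ _ _ hb, zero_mul]
    · simp
  rw [h3, ← mul_assoc, h1]
  by_cases h4 : i = l <;> by_cases h5 : j = k <;> simp [h4, h5]

/-- base change of a matrix representation -/
def mapRep {G : Type u} [Group G] {R S : Type} [CommRing R] [CommRing S] {d : ℕ} (f : R →+* S)
    (ρ : G →* Mat d R) : G →* Mat d S :=
  (f.mapMatrix : Mat d R →+* Mat d S).toMonoidHom.comp ρ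

theorem mapRep_apply {G : Type u} [Group G] {R S : Type} [CommRing R] [CommRing S] {d : ℕ}
    (f : R →+* S) (ρ : G →* Mat d R) (g : G) : mapRep f ρ g = (ρ g).map f := rfl

theorem orth_map {G : Type u} [Group G] [Fintype G] {R S : Type} [CommRing R] [CommRing S] {d : ℕ}
    (f : R →+* S) {ρ : G →* Mat d R} (h : Orth ρ) : Orth (mapRep f ρ) := by
  intro i j k l
  have h1 := congrArg f (h i j k l)
  rw [map_mul, map_natCast, map_sum] at h1
  simp only [mapRep_apply, map_apply, ← map_mul f]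
  rw [h1]
  split_ifs <;> simp

theorem orth_map_comp {G L : Type u} [Group G] [Group L] [Fintype L] {R S : Type} [CommRing R]
    [CommRing S] {d : ℕ} (f : R →+* S) {ρ : G →* Mat d R} {j : L →* G}
    (h : ∀ T : Mat d R, (∀ g, T * ρ.comp j g = ρ.comp j g * T) → ∃ c : R, T = c • 1) :
    Orth ((mapRep f ρ).comp j) :=
  orth_map f (orth_of_schur _ h)

theorem mapRep_smul {G : Type u} [Group G] {R S : Type} [CommRing R] [CommRing S] {d : ℕ}
    (f : R →+* S) {ρ : G →* Mat d R} {g : G} {c : R} (h : ρ g = c • 1) :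
    mapRep f ρ g = f c • 1 := by
  rw [mapRep_apply, h]
  ext i j
  by_cases hij : i = j <;> simp [hij, one_apply]

variable {M : Ideal AlgInt}

theorem schurV {G : Type u} [Group G] [Finite G] {d : ℕ} {σ : G →* Mat d (Vr M)} {χ : G → ℂ}
    (hσ : ∀ g, ((σ g).trace : ℂ) = χ g) (hχ : IsIrrCharacter G χ) (T : Mat d (Vr M))
    (hT : ∀ g, T * σ g = σ g * T) : ∃ c : Vr M, T = c • 1 := by
  have h1 := H58.character_extRep hσ
  have h2 : Representation.IsIrreducible (H58.extRep (Vr M).subtype σ) :=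
    (H11.isIrreducible_iff_isIrrCharacter _).2 (by rw [h1]; exact hχ)
  obtain ⟨c, hc⟩ := H11.exists_eq_smul_id_of_commute (H58.extRep (Vr M).subtype σ)
    (H16.matExt (Vr M).subtype T) fun g => by
      rw [H58.extRep_eq, ← map_mul, ← map_mul, hT]
  have h3 : ∀ i j, (T i j : ℂ) = if i = j then c else 0 := fun i j => by
    have h4 := congrFun (LinearMap.congr_fun hc (Pi.single j 1)) i
    rw [H16.matExt_apply, mulVec_single_one] at h4
    simpa [Pi.single_apply] using h4
  rcases isEmpty_or_nonempty (Fin d) with hd | ⟨⟨i₀⟩⟩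
  · exact ⟨0, Subsingleton.elim _ _⟩
  refine ⟨T i₀ i₀, ?_⟩
  ext i j
  rw [h3, Matrix.smul_apply, one_apply]
  split_ifs with hij
  · simp [h3]
  · simp

theorem scal {G : Type u} [Group G] {d : ℕ} {σ : G →* Mat d (Vr M)} {χ : G → ℂ}
    (hσ : ∀ g, ((σ g).trace : ℂ) = χ g) (h1 : χ 1 ≠ 0) {g : G} {c : Vr M} (hc : σ g = c • 1)
    {n : ℕ} (hn : g ^ n = 1) : (c : ℂ) ^ n = 1 ∧ χ g = c * χ 1 := by
  have h2 : χ 1 = d := by
    rw [← hσ, map_one, trace_one]; simp
  constructor
  · have h3 := hσ (g ^ n)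
    rw [map_pow, hc, smul_pow, one_pow, trace_smul, trace_one, hn, h2] at h3
    rw [h2] at h1
    simp only [Fintype.card_fin, smul_eq_mul, MulMemClass.coe_mul, SubmonoidClass.coe_pow,
      SubringClass.coe_natCast] at h3
    exact mul_right_cancel₀ h1 (by rw [h3, one_mul])
  · rw [← hσ, hc, trace_smul, trace_one, h2]
    simp

theorem lift_hom {p : ℕ} [Fact p.Prime] (hM : IsPModular p M) {Y : Type u} [Group Y] [Finite Y]
    (μ : Y →* (kk M)ˣ) : ∃ (ν : Y →* ℂˣ) (n : ℕ), ¬ p ∣ n ∧ (∀ y, (ν y : ℂ) ^ n = 1) ∧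
      ∀ y, red M (ν y) = μ y := by
  have := charP_kk hM
  obtain ⟨a, n, hn, hY⟩ := Nat.exists_eq_pow_mul_and_not_dvd (Nat.card_pos (α := Y)).ne' p
    (Fact.out : p.Prime).ne_one
  have hn0 : n ≠ 0 := by
    rintro rfl
    exact hn (dvd_zero _)
  have h1 : ∀ y, (μ y : kk M) ^ n = 1 := fun y => by
    have h2 : ((μ y : kk M) ^ n) ^ p ^ a = 1 := by
      rw [← pow_mul, mul_comm, ← hY, ← Units.val_pow_eq_pow_val, ← map_pow, pow_card_eq_one',
        map_one, Units.val_one]
    have h3 : ((μ y : kk M) ^ n - 1) ^ p ^ a = 0 := by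
      rw [sub_pow_char_pow, h2, one_pow, sub_self]
    exact sub_eq_zero.1 (pow_eq_zero_iff (pow_ne_zero _ (Fact.out : p.Prime).ne_zero) |>.1 h3)
  choose z hz1 hz2 using fun y => exists_pow_eq_one_red_eq hn0 (h1 y)
  have hz0 : ∀ y, z y ≠ 0 := fun y h => by
    have h2 := hz1 y
    rw [h, zero_pow hn0] at h2
    exact zero_ne_one h2
  refine ⟨MonoidHom.mk' (fun y => Units.mk0 (z y) (hz0 y)) fun x y => Units.ext ?_, n, hn, hz1,
    hz2⟩
  refine eq_of_red_eq_of_pow_eq_one hM hn hn (hz1 _) ?_ ?_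
  · change (z x * z y) ^ n = 1
    rw [mul_pow, hz1, hz1, one_mul]
  · change red M (z (x * y)) = red M (z x * z y)
    rw [red_mul (mem_Vr_of_pow_eq_one hn0 (hz1 _)) (mem_Vr_of_pow_eq_one hn0 (hz1 _)), hz2, hz2,
      hz2, map_mul, Units.val_mul]

theorem trace_red {d : ℕ} (T : Mat d (Vr M)) : (T.map (resR M)).trace = red M (T.trace : ℂ) := by
  rw [red_coe, AddMonoidHom.map_trace]

theorem ext (hMu : MultStmt.{u}) (hC : CextStmt.{u}) : ExtStmt.{u} := by
  intro p _ M hM Γ _ _ N A H Z _ hN hA hAc hH hNH hZ hZp χ hχN _ φ hφ m hm hin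
  have := charP_kk hM
  have := Fintype.ofFinite N
  obtain ⟨Y, _, _, π, s, φ', hπ, hker, hs, hconj, hφ', hpr⟩ := hC H (N.subgroupOf H) φ hφ
  obtain ⟨d, ρ, hρ⟩ := H58.exists_lattice_char M (H11.isCharacter_of_irr χ.2)
  obtain ⟨e, τ, hτ⟩ := H58.exists_lattice_char M (H11.isCharacter_of_irr φ'.2)
  have hCN : Nat.card (N.subgroupOf H) ∣ Nat.card N := by
    rw [← Subgroup.inf_subgroupOf_right, Nat.card_congr (Subgroup.subgroupOfEquivOfLe
      (inf_le_right : N ⊓ H ≤ H)).toEquiv]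
    exact Subgroup.card_dvd_of_le inf_le_left
  have hCp : ¬ p ∣ Nat.card (N.subgroupOf H) := fun h => hN (h.trans hCN)
  have hKp : ¬ p ∣ Nat.card π.ker := fun h => hCp (hpr p Fact.out h)
  have hρN : ∀ T : Mat d (Vr M), (∀ g, T * ρ.comp N.subtype g = ρ.comp N.subtype g * T) →
      ∃ c : Vr M, T = c • 1 := schurV (fun g => hρ _) hχN
  have hτC : ∀ T : Mat e (Vr M), (∀ g, T * τ.comp s g = τ.comp s g * T) →
      ∃ c : Vr M, T = c • 1 := schurV (fun g => (hτ _).trans (hφ' g)) φ.2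
  have hχ1 : χ.1 1 ≠ 0 := H11.irr_apply_one_ne_zero χ.2
  have hφ1 : φ'.1 1 ≠ 0 := H11.irr_apply_one_ne_zero φ'.2
  obtain ⟨μ, hμ1, hμ2⟩ := hMu (kk M) p Γ N A hA hAc Y (N.subgroupOf H) (H.subtype.comp π) s
    (fun y => hH (π y).2)
    (fun c => by
      rw [← hNH, MonoidHom.comp_apply, hs]
      exact ⟨c.2, c.1.2⟩)
    (fun x hx => by
      rw [← hNH] at hx
      exact ⟨⟨⟨x, hx.2⟩, hx.1⟩, by rw [MonoidHom.comp_apply, hs]; rfl⟩)
    (fun y c => ⟨_, hconj y c⟩) d e (mapRep (resR M) ρ) (mapRep (resR M) τ)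
    (orth_map_comp (resR M) hρN) (orth_map_comp (resR M) hτC)
    (by rw [Ne, CharP.cast_eq_zero_iff _ p, ← Nat.card_eq_fintype_card]; exact hN)
    (by rw [Ne, CharP.cast_eq_zero_iff _ p, ← Nat.card_eq_fintype_card]; exact hCp)
    (by
      have h1 : ∑ c : N.subgroupOf H, χ.1 (c : H) * φ.1 c⁻¹ =
          ((Nat.card (N.subgroupOf H) * m : ℕ) : ℂ) := by
        rw [Nat.cast_mul, ← hin, classInner, mul_inv_cancel_left₀
          (Nat.cast_ne_zero.2 Nat.card_pos.ne')]
        exact Finset.sum_congr rfl fun c _ => by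
          rw [H11.conj_apply (H11.isCharacter_of_irr φ.2)]
      have h2 : ∀ c : N.subgroupOf H, χ.1 (c : H) ∈ Vr M := fun c => by
        rw [← hρ]; exact SetLike.coe_mem _
      have h3 : ∀ c : N.subgroupOf H, φ.1 c ∈ Vr M := fun c => by
        rw [← hφ', ← hτ]; exact SetLike.coe_mem _
      have h4 := congrArg (red M) h1
      rw [red_sum fun c _ => mul_mem (h2 c) (h3 _), red_natCast] at h4
      rw [Finset.sum_congr rfl (g := fun c : N.subgroupOf H => red M (χ.1 (c : H) * φ.1 c⁻¹))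
        fun c _ => by
          rw [mapRep_apply, mapRep_apply, trace_red, trace_red, hρ, hτ, hφ', red_mul (h2 c) (h3 _),
            MonoidHom.comp_apply, hs]
          rfl, h4, Ne, CharP.cast_eq_zero_iff _ p]
      exact fun h => ((Nat.Prime.dvd_mul Fact.out).1 h).elim hCp hm)
  obtain ⟨ν, n, hn, hν1, hν2⟩ := lift_hom hM μ
  have hn0 : n ≠ 0 := by
    rintro rfl
    exact hn (dvd_zero _)
  -- the values at the elements over `Z`
  have key : ∀ y : Y, ((π y : H) : Γ) ∈ Z →
      φ'.1 y * ν y * χ.1 1 = φ'.1 1 * χ.1 (π y : H) := fun y hy => by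
    have hc := Subgroup.mem_center_iff.1 (hZ hy)
    obtain ⟨a, ha⟩ := hρN (ρ (π y : H)) fun g => by
      rw [MonoidHom.comp_apply, ← map_mul, ← map_mul, hc]
    obtain ⟨b, hb⟩ := hτC (τ y) fun c => by
      have h1 : MulAut.conjNormal (π y) c = c := by
        apply Subtype.ext
        apply Subtype.ext
        rw [MulAut.conjNormal_apply]
        push_cast
        rw [← hc, mul_inv_cancel_right]
      have h2 := hconj y c
      rw [h1, mul_inv_eq_iff_eq_mul] at h2
      rw [MonoidHom.comp_apply, ← map_mul, ← map_mul, h2]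
    have h1 : ((π y : H) : Γ) ^ Nat.card Z = 1 :=
      congrArg Subtype.val (pow_card_eq_one' (G := Z) (x := ⟨_, hy⟩))
    have h2 : y ^ (Nat.card Z * Nat.card π.ker) = 1 := by
      have h3 : y ^ Nat.card Z ∈ π.ker := by
        rw [MonoidHom.mem_ker, map_pow]
        exact Subtype.ext h1
      rw [pow_mul]
      exact congrArg Subtype.val (pow_card_eq_one' (G := π.ker) (x := ⟨_, h3⟩))
    obtain ⟨ha1, ha2⟩ := scal hρ hχ1 ha h1
    obtain ⟨hb1, hb2⟩ := scal hτ hφ1 hb h2
    have h3 := hμ2 y (resR M a) (resR M b)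
      (Subgroup.mem_centralizer_iff.2 fun g _ => hc g) (mapRep_smul _ ha) (mapRep_smul _ hb)
    have h4 : (ν y : ℂ) * b = a := by
      refine eq_of_red_eq_of_pow_eq_one hM (m := n * (Nat.card Z * Nat.card π.ker)) ?_ hZp ?_ ha1 ?_
      · intro h
        rcases (Nat.Prime.dvd_mul Fact.out).1 h with h | h
        · exact hn h
        · exact ((Nat.Prime.dvd_mul Fact.out).1 h).elim hZp hKp
      · rw [mul_pow, pow_mul, hν1, one_pow, one_mul, mul_comm n, pow_mul, hb1, one_pow]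
      · rw [red_mul (mem_Vr_of_pow_eq_one hn0 (hν1 y)) b.2, hν2, red_coe, red_coe, h3]
    rw [ha2, hb2, ← h4]
    ring
  have hψ := H11.isIrrCharacter_mul_linear φ'.2 (H11.isCharacter_monoidHom ν) (by simp)
  obtain ⟨ψ, hψ1, hψ2⟩ := H11.exists_irr_lift_of_surjective hψ π hπ
    ((H11.le_charKer_iff (H11.isCharacter_of_irr hψ)).2 fun y hy => by
      have h1 := key y (by rw [MonoidHom.mem_ker.1 hy]; exact one_mem _)
      rw [MonoidHom.mem_ker.1 hy] at h1
      simpa using mul_right_cancel₀ hχ1 h1)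
  refine ⟨⟨ψ, hψ1⟩, fun c => ?_, fun z hz => ?_⟩
  · have h1 : (ν (s c) : ℂ) = 1 :=
      eq_one_of_red_eq_one hM hn (hν1 _) (by rw [hν2, hμ1, Units.val_one])
    have h2 := hψ2 (s c)
    rw [hs, Pi.mul_apply, h1, mul_one, hφ'] at h2
    exact h2
  · obtain ⟨y, rfl⟩ := hπ z
    have h1 := hψ2 1
    rw [map_one] at h1
    change ψ (π y) * χ.1 1 = ψ 1 * χ.1 (π y : H)
    rw [hψ2, h1, Pi.mul_apply, key y hz]
    simp

theorem eqns_DsExt : True := by
  have _ := @mapRep.eq_1.{0}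
  trivial

end Cfsg.Agent.H24.DsE
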