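import Mathlib
import Cfsg.Agent.H97.JmDefs

/-! Project JM: the pieces ALLD and TR. -/

set_option autoImplicit false

namespace Cfsg.Agent.H97.JM

open Subgroup

universe u

namespace ALLD

theorem m1 (p : ℕ) (hp : p.Prime) (d : ℕ) (h : d ∣ p) : d ∈ [1, p] := by
  rcases (Nat.dvd_prime hp).1 h with h | h <;> simp [h]

theorem m3 (p : ℕ) (hp : p.Prime) (d : ℕ) (h : d ∣ p ^ 3) : d ∈ [1, p, p ^ 2, p ^ 3] := by
  obtain ⟨k, hk, rfl⟩ := (Nat.dvd_prime_pow hp).1 h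
  interval_cases k <;> simp

end ALLD

theorem pALLD : ALLD := by
  intro P hP n hn
  have e : (86775571046077562880 : ℕ) =
      2 ^ 21 * 3 ^ 3 * 5 * 7 * 11 ^ 3 * 23 * 29 * 31 * 37 * 43 := by norm_num
  rw [e] at hn
  obtain ⟨n0, j, h0, hj, e0⟩ := (Nat.dvd_mul).1 hn
  obtain ⟨n1, i, h1, hi, e1⟩ := (Nat.dvd_mul).1 h0
  obtain ⟨n2, h, h2, hh, e2⟩ := (Nat.dvd_mul).1 h1
  obtain ⟨n3, g, h3, hg, e3⟩ := (Nat.dvd_mul).1 h2
  obtain ⟨n4, f, h4, hf, e4⟩ := (Nat.dvd_mul).1 h3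
  obtain ⟨n5, e', h5, he, e5⟩ := (Nat.dvd_mul).1 h4
  obtain ⟨n6, d, h6, hd, e6⟩ := (Nat.dvd_mul).1 h5
  obtain ⟨n7, c, h7, hc, e7⟩ := (Nat.dvd_mul).1 h6
  obtain ⟨n8, b, h8, hb, e8⟩ := (Nat.dvd_mul).1 h7
  obtain ⟨a, ha, e9⟩ := (Nat.dvd_prime_pow Nat.prime_two).1 h8
  rw [← e0, ← e1, ← e2, ← e3, ← e4, ← e5, ← e6, ← e7, ← e8, e9]
  unfold allD at hP
  simp only [List.all_eq_true] at hP
  exact hP a (List.mem_range.2 (by omega)) b (ALLD.m3 3 (by norm_num) b hb)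
    c (ALLD.m1 5 (by norm_num) c hc) d (ALLD.m1 7 (by norm_num) d hd)
    e' (ALLD.m3 11 (by norm_num) e' he) f (ALLD.m1 23 (by norm_num) f hf)
    g (ALLD.m1 29 (by norm_num) g hg) h (ALLD.m1 31 (by norm_num) h hh)
    i (ALLD.m1 37 (by norm_num) i hi) j (ALLD.m1 43 (by norm_num) j hj)

theorem pTR : TR.{u} := by
  intro G _ _ p _ S S' h
  obtain ⟨g, rfl⟩ := MulAction.exists_smul_eq G S S'
  have e : normalizer (((g • S : Sylow p G) : Subgroup G) : Set G) =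
      (MulAut.conj g).mapSubgroup (normalizer ((S : Subgroup G) : Set G)) := by
    have := Subgroup.map_equiv_normalizer_eq (S : Subgroup G) (MulAut.conj g)
    exact this.symm
  rw [e]
  exact (OrderIso.isCoatom_iff _ _).2 h

end Cfsg.Agent.H97.JM
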