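import Cfsg.Agent.H97.JmDefs
import Cfsg.Prelude.Def_JankoFourType

/-!
# The maximal subgroup `Aut M₂₂` of the fourth Janko group: data and statements of the pieces
-/

set_option autoImplicit false

namespace Cfsg.Agent.H24.JN

open Subgroup Cfsg.Agent.H97.JM

universe u

/-- The outcome of the computation in the model. -/
structure D22 {G : Type u} [Group G] (M K : Subgroup G) (x h s : G) : Prop where
  le : K ≤ M
  idx : K.relIndex M = 2
  xM : x ∈ M
  hM : h ∈ M
  sM : s ∈ M
  x11 : orderOf x = 11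
  h10 : orderOf h = 10
  s7 : orderOf s = 7
  hx : h * x * h⁻¹ = x ^ 2
  d32 : 32 ∣ Nat.card M
  d9 : 9 ∣ Nat.card M
  ctl : ∀ H : Subgroup G, M ≤ H → (29 ∣ Nat.card H ∧ 31 ∣ Nat.card H) ∨
    (Nat.card ↥(H ⊓ normalizer ((zpowers x : Subgroup G) : Set G)) = 110 ∧
      Nat.card ↥(H ⊓ normalizer ((zpowers s : Subgroup G) : Set G)) = 42)

/-- A non-central element of order eleven has a small normalizer. -/
def B11 : Prop := ∀ (G : Type u) [Group G] [Finite G] [IsSimpleGroup G], ¬ IsMulCommutative G →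
  IsOfJankoFourType G → ∀ x v r : G, orderOf x = 11 → orderOf v = 11 → orderOf r = 3 →
  r * v = v * r → x * v = v * x → r * x ≠ x * r →
  Nat.card (normalizer ((zpowers x : Subgroup G) : Set G)) ≤ 2420

/-- Order and maximality. -/
def MX : Prop := ∀ (G : Type u) [Group G] [Finite G], Ctx G → ∀ (M K : Subgroup G) (x h s : G),
  D22 M K x h s → IsCoatom M ∧ Nat.card M = 887040 ∧
    Nat.card ↥(M ⊓ normalizer ((zpowers x : Subgroup G) : Set G)) = 110 ∧
    Nat.card ↥(M ⊓ normalizer ((zpowers s : Subgroup G) : Set G)) = 42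

/-- Simplicity of the subgroup of index two. -/
def SI : Prop := ∀ (K : Type u) [Group K] [Finite K] (x s : K), Nat.card K = 443520 →
  orderOf x = 11 → orderOf s = 7 → centralizer ({x} : Set K) = zpowers x →
  Nat.card (normalizer ((zpowers x : Subgroup K) : Set K)) ∣ 110 →
  Nat.card (normalizer ((zpowers s : Subgroup K) : Set K)) ∣ 42 → IsSimpleGroup K

/-- Identification. -/
def ID : Prop := ∀ (M : Type u) [Group M] [Finite M] (K : Subgroup M), K.index = 2 →
  IsSimpleGroup K → Nat.card K = 443520 → centralizer (K : Set M) = ⊥ →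
  Nonempty (M ≃* MulAut ↥Cfsg.Spor.M22)

/-- From the data to the isomorphism. -/
def GL2 : Prop := ∀ (G : Type u) [Group G] [Finite G] (M K : Subgroup G) (x h s : G),
  D22 M K x h s → Nat.card M = 887040 →
  Nat.card ↥(M ⊓ normalizer ((zpowers x : Subgroup G) : Set G)) = 110 →
  Nat.card ↥(M ⊓ normalizer ((zpowers s : Subgroup G) : Set G)) = 42 →
  Nonempty (↥M ≃* MulAut ↥Cfsg.Spor.M22)

theorem eqns_JnDefs : True := by
  have := @B11.eq_1.{0}
  have := @MX.eq_1.{0}
  have := @SI.eq_1.{0}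
  have := @ID.eq_1.{0}
  have := @GL2.eq_1.{0}
  trivial

end Cfsg.Agent.H24.JN
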