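import Cfsg.Agent.H24.JnT
import Cfsg.Agent.H24.JnDefs

/-!
# The computation for the subgroup `Aut M₂₂`
-/

set_option autoImplicit false
set_option maxRecDepth 1000000

namespace Cfsg.Agent.H24.JN

open Subgroup Cfsg.Agent.H42 Cfsg.Agent.H46 Cfsg.Agent.H17.J4R Cfsg.Agent.H97.JM

universe u

variable {G : Type u} [Group G] [Finite G]

omit [Finite G] in
theorem ord_spec {ρ : G →* GL112} (hρ : Function.Injective ρ) {a : ℕ} {g : G} {l : List Bool}
    (r : CG.R a (ρ g)) (hp : (valL l 1).Prime) (c : ordB a l = true) : orderOf g = valL l 1 := by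
  have := Fact.mk hp
  rw [ordB, force_eq] at c
  obtain ⟨c1, c2⟩ := andB_iff.mp c
  have r1 : CG.R a (ρ g ^ 1) := by rwa [pow_one]
  have r2 := KC.R_pwL CG r l r1
  rw [← map_pow] at r2
  refine orderOf_eq_prime ((eq_of_beq hρ r2 R_one').mp c1) fun e => ?_
  have := notB_iff.mp c2
  rw [(eq_of_beq hρ r R_one').mpr e] at this
  exact absurd this (by simp)

theorem pr {p a b : ℕ} (hp : p.Prime) (ha : a.Prime) (hb : b.Prime) (h : p ∣ a * b) :
    p = a ∨ p = b :=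
  ((Nat.Prime.dvd_mul hp).mp h).imp (Nat.prime_dvd_prime_iff_eq hp ha).mp
    (Nat.prime_dvd_prime_iff_eq hp hb).mp

omit [Finite G] in
theorem nth_sub {ρ : G →* GL112} {H : Subgroup G} {A : List ℕ} (h : ∀ a ∈ A, MemC ρ H a)
    (l : List ℕ) : ∀ a ∈ l.map (nthO A), MemC ρ H a := fun a ha => by
  obtain ⟨i, -, rfl⟩ := List.mem_map.mp ha
  exact memC_nth h i

theorem c22 (hM : Model G)
    (h7 : ∀ a : G, orderOf a = 7 →
      Nat.card (normalizer ((zpowers a : Subgroup G) : Set G)) = 2520)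
    (h11 : ∀ x v r : G, orderOf x = 11 → orderOf v = 11 → orderOf r = 3 →
      r * v = v * r → x * v = v * x → r * x ≠ x * r →
      Nat.card (normalizer ((zpowers x : Subgroup G) : Set G)) ≤ 2420) :
    ∃ (M K : Subgroup G) (x h s : G), D22 M K x h s := by
  obtain ⟨ρ, hρ, h0⟩ := model_spec hM
  have hB := wd_spec h0 B_chk
  have hG := wd_spec hB G_chk
  have hL := wd_spec (memC_clo hG) L_chk
  have hV := wd_spec hB V_chk
  have z11 : ∀ a ∈ [L_9, L_10], MemC ρ (clo ρ Gs) a := nth_sub hL [9, 10]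
  have z7 : ∀ a ∈ [L_0, L_1], MemC ρ (clo ρ Gs) a := nth_sub hL [0, 1]
  have z2 : ∀ a ∈ [L_2, L_3, L_4, L_5, L_6], MemC ρ (clo ρ Gs) a := nth_sub hL [2, 3, 4, 5, 6]
  have z3 : ∀ a ∈ [L_7, L_8], MemC ρ (clo ρ Gs) a := nth_sub hL [7, 8]
  obtain ⟨x, xM, rx⟩ := z11 L_9 List.mem_cons_self
  obtain ⟨h, hM', rh⟩ := z11 L_10 (List.mem_cons_of_mem _ List.mem_cons_self)
  obtain ⟨s, sM, rs⟩ := z7 L_0 List.mem_cons_self
  obtain ⟨k, kM, rk⟩ := z7 L_1 (List.mem_cons_of_mem _ List.mem_cons_self)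
  obtain ⟨v, -, rv⟩ := hV V_0 List.mem_cons_self
  obtain ⟨r, -, rr⟩ := hV V_1 (List.mem_cons_of_mem _ List.mem_cons_self)
  obtain ⟨t, -, rt⟩ := hG Gs_1 (List.mem_cons_of_mem _ List.mem_cons_self)
  obtain ⟨o1, a1, a2, a3, -⟩ := rel_spec hρ rx rh (by norm_num) R11_chk
  obtain ⟨o2, b1, b2, b3, -⟩ := rel_spec hρ rs rk (by norm_num) R7_chk
  have o3 : orderOf h = 10 := ord_of (p1 := 5) (p2 := 2) (by norm_num) a1 a2 a3 rfl rfl
    fun p pp pd => pr (a := 5) (b := 2) pp (by norm_num) (by norm_num) pd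
  have o4 : orderOf k = 6 := ord_of (p1 := 3) (p2 := 2) (by norm_num) b1 b2 b3 rfl rfl
    fun p pp pd => pr (a := 3) (b := 2) pp (by norm_num) (by norm_num) pd
  have o5 : orderOf v = 11 := ord_spec hρ rv (l := [false, true, true]) (by decide) v_chk
  have o6 : orderOf r = 3 := ord_spec hρ rr (l := [true]) (by decide) r_chk
  have n11 := h11 x v r o1 o5 o6 ((eq_of_beq hρ (R_mul' rr rv) (R_mul' rv rr)).mp rv_chk)
    ((eq_of_beq hρ (R_mul' rx rv) (R_mul' rv rx)).mp xv_chk) (fun e => by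
      have := notB_iff.mp rx_chk
      rw [(eq_of_beq hρ (R_mul' rr rx) (R_mul' rx rr)).mpr e] at this
      exact absurd this (by simp))
  have hBk : ∀ a ∈ B ++ [L_1], MemC ρ ⊤ a := fun a ha =>
    (List.mem_append.mp ha).elim (hB a) fun ha => by
      rw [List.mem_singleton.mp ha]; exact ⟨k, mem_top _, rk⟩
  have d110 : 110 ∣ Nat.card (clo ρ [L_9, L_10]) :=
    Nat.Coprime.mul_dvd_of_dvd_of_dvd (m := 11) (n := 10) (by norm_num)
      (o1 ▸ H33.J4O.ord_dvd (mem_clo List.mem_cons_self rx))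
      (o3 ▸ H33.J4O.ord_dvd (mem_clo (List.mem_cons_of_mem _ List.mem_cons_self) rh))
  have d42 : 42 ∣ Nat.card (clo ρ [L_0, L_1]) :=
    Nat.Coprime.mul_dvd_of_dvd_of_dvd (m := 7) (n := 6) (by norm_num)
      (o2 ▸ H33.J4O.ord_dvd (mem_clo List.mem_cons_self rs))
      (o4 ▸ H33.J4O.ord_dvd (mem_clo (List.mem_cons_of_mem _ List.mem_cons_self) rk))
  have c11 := ctl_spec hρ (n := 110) (nm_spec hρ rx (wd_spec hB K11_chk) N11_chk) hL
    (nm_spec hρ rx (fun a ha => memC_top (z11 a ha)) Z11_chk) z11 F11_chk (by decide) (by decide)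
    t11_chk t11_inc t11_len (by norm_num) d110 n11
  have c7 := ctl_spec hρ (n := 42) (nm_spec hρ rs (wd_spec hBk K7_chk) N7_chk) hL
    (nm_spec hρ rs (fun a ha => memC_top (z7 a ha)) Z7_chk) z7 F7_chk (by decide) (by decide)
    t7_chk t7_inc t7_len (by norm_num) d42 (h7 s o2).le
  have d32 := pow_dvd_clo hρ (k := 4) (b := [false]) (fun a ha => memC_top (z2 a ha)) (by decide)
    A2_chk vR_chk t2_chk t2_inc (by rw [t2_len]; decide)
  have d9 := pow_dvd_clo hρ (k := 1) (b := [true]) (fun a ha => memC_top (z3 a ha)) (by decide)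
    A3_chk vR_chk t3_chk t3_inc (by rw [t3_len]; decide)
  obtain ⟨K, k1, k2⟩ := idx_spec sw_chk dis_chk o1_mem o1_chk
    (List.mem_cons_of_mem _ List.mem_cons_self) rt m1_chk m2_chk
  refine ⟨clo ρ Gs, K, x, h, s, k1, k2, xM, hM', sM, o1, o3, o2, ?_,
    d32.trans (card_dvd_of_le (clo_le' hρ z2)), d9.trans (card_dvd_of_le (clo_le' hρ z3)),
    fun H hH => ?_⟩
  · rw [(eq_of_beq hρ (R_mul' rh rx) (R_mul' (R_pow' rx 2) rh)).mp hx_chk, mul_inv_cancel_right]
  · rcases c11 H hH with e | e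
    · exact Or.inl e
    · exact (c7 H hH).imp_right fun e' => ⟨e, e'⟩

end Cfsg.Agent.H24.JN
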