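import Cfsg.Agent.H97.JmG
import Cfsg.Agent.H9.JmVC
import Cfsg.Agent.H90.JmKC

/-!
# More checks on explicit elements of the model of degree 112
-/

set_option autoImplicit false

namespace Cfsg.Agent.H24.JN

open Subgroup Cfsg.Agent.H42 Cfsg.Agent.H46 Cfsg.Agent.H17.J4R Cfsg.Agent.H97.JM

universe u

/-- All codes of `l` fix the vector `v`. -/
noncomputable def fixB (v : ℕ) (l : List ℕ) : Bool :=
  andB (ltB v (Nat.pow 2 (112 * 1))) (allL (fun a => Nat.beq (act a v) v) l)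

/-- The codes of `l` commute and have `p`-th power one. -/
noncomputable def abB (p : ℕ) (l : List ℕ) : Bool :=
  allL (fun a => andB (Nat.beq (O.pow a p) one) (allL (fun b => Nat.beq (mul a b) (mul b a)) l)) l

/-- The code `a` maps the vectors of `A` into `B`. -/
noncomputable def mapB (a : ℕ) (A B : List ℕ) : Bool :=
  allL (fun v => force (act a v) fun w => anyL (fun b => Nat.beq w b) B) A

/-- The code `a` preserves or interchanges `A` and `B`. -/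
noncomputable def swB (A B : List ℕ) (a : ℕ) : Bool :=
  orB (andB (mapB a A A) (mapB a B B)) (andB (mapB a A B) (mapB a B A))

/-- The lists are disjoint. -/
noncomputable def disB (A B : List ℕ) : Bool :=
  allL (fun v => allL (fun b => notB (Nat.beq v b)) B) A

variable {G : Type u} [Group G] {ρ : G →* GL112}

/-- The subgroup generated by the elements with the given codes. -/
def clo (ρ : G →* GL112) (l : List ℕ) : Subgroup G := closure {g | ∃ a ∈ l, CG.R a (ρ g)}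

/-- The element `g` maps the vectors coded in `A` to vectors coded in `B`. -/
def Mp (ρ : G →* GL112) (g : G) (A B : List ℕ) : Prop :=
  ∀ x, (∃ v ∈ A, VP v x) → ∃ v ∈ B, VP v (ρ g • x)

theorem mem_clo {l : List ℕ} {a : ℕ} {g : G} (ha : a ∈ l) (r : CG.R a (ρ g)) : g ∈ clo ρ l :=
  subset_closure ⟨a, ha, r⟩

theorem memC_clo {l : List ℕ} (h : ∀ a ∈ l, MemC ρ ⊤ a) : ∀ a ∈ l, MemC ρ (clo ρ l) a :=
  fun a ha => by
    obtain ⟨g, -, r⟩ := h a ha
    exact ⟨g, mem_clo ha r, r⟩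

theorem mem_of_memC (hρ : Function.Injective ρ) {H : Subgroup G} {a : ℕ} {g : G}
    (h : MemC ρ H a) (r : CG.R a (ρ g)) : g ∈ H := by
  obtain ⟨k, hk, s⟩ := h
  rwa [(eq_of_beq hρ r s).mp (beq_iff.mpr rfl)]

theorem clo_le' (hρ : Function.Injective ρ) {l : List ℕ} {H : Subgroup G}
    (h : ∀ a ∈ l, MemC ρ H a) : clo ρ l ≤ H := by
  rw [clo, closure_le]
  rintro g ⟨a, ha, r⟩
  exact mem_of_memC hρ (h a ha) r

theorem memC_top {H : Subgroup G} {a : ℕ} (h : MemC ρ H a) : MemC ρ ⊤ a := by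
  obtain ⟨k, -, s⟩ := h
  exact ⟨k, mem_top _, s⟩

theorem fix_spec {v : ℕ} {l : List ℕ} (c : fixB v l = true) :
    ∃ x, VP v x ∧ ∀ z ∈ clo ρ l, ρ z • x = x := by
  obtain ⟨c1, c2⟩ := andB_iff.mp c
  obtain ⟨x, hv⟩ : ∃ x, VP v x := ⟨_, matData.P_dec (Equiv.refl _) (canon_of_lt c1)⟩
  refine ⟨x, hv, fun z hz => ?_⟩
  have h3 : clo ρ l ≤ (MulAction.stabilizer GL112 x).comap ρ := by
    rw [clo, closure_le]
    rintro g ⟨a, ha, r⟩
    have h1 := matData.P_act (Equiv.refl _) a (ρ g) v _ r hv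
    rw [beq_iff.mp (allL_iff.mp c2 a ha)] at h1
    exact ((matData.vecs (Equiv.refl _)).key_iff h1 hv).mp rfl
  exact h3 hz

theorem ab_spec (hρ : Function.Injective ρ) {p : ℕ} {l : List ℕ} (c : abB p l = true) :
    IsPGroup p (clo ρ l) := by
  have c1 := allL_iff.mp c
  have hc : ∀ x ∈ {g | ∃ a ∈ l, CG.R a (ρ g)}, ∀ y ∈ {g | ∃ a ∈ l, CG.R a (ρ g)},
      x * y = y * x := by
    rintro g ⟨a, ha, r⟩ k ⟨b, hb, s⟩
    exact (eq_of_beq hρ (R_mul' r s) (R_mul' s r)).mp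
      (allL_iff.mp (andB_iff.mp (c1 a ha)).2 b hb)
  have hm := isMulCommutative_closure hc
  have key : ∀ g ∈ clo ρ l, g ^ p = 1 := by
    intro g hg
    induction hg using closure_induction with
    | mem g h =>
      obtain ⟨a, ha, r⟩ := h
      exact (eq_of_beq hρ (R_pow' r p) R_one').mp (andB_iff.mp (c1 a ha)).1
    | one => exact one_pow p
    | mul g k hg hk i1 i2 =>
      have : Commute g k := congrArg Subtype.val (hm.is_comm.comm ⟨g, hg⟩ ⟨k, hk⟩)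
      rw [this.mul_pow, i1, i2, one_mul]
    | inv g _ i => rw [inv_pow, i, inv_one]
  exact fun g => ⟨1, Subtype.ext (by rw [pow_one]; exact key g g.2)⟩

theorem map_spec {a : ℕ} {g : G} {A B : List ℕ} (r : CG.R a (ρ g)) (c : mapB a A B = true) :
    Mp ρ g A B := by
  rintro x ⟨v, hv, h⟩
  have c1 := allL_iff.mp c v hv
  rw [force_eq] at c1
  obtain ⟨b, hb, e⟩ := anyL_iff.mp c1
  exact ⟨b, hb, beq_iff.mp e ▸ matData.P_act (Equiv.refl _) a (ρ g) v _ r h⟩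

theorem Mp.mul {g k : G} {A B C : List ℕ} (h1 : Mp ρ g B C) (h2 : Mp ρ k A B) :
    Mp ρ (g * k) A C := fun x hx => by
  rw [map_mul, mul_smul]
  exact h1 _ (h2 x hx)

theorem Mp.one {A : List ℕ} : Mp ρ (1 : G) A A := fun x hx => by
  rwa [map_one, one_smul]

theorem inv_closed [Finite G] {P : G → Prop} (h1 : P 1) (hm : ∀ a b, P a → P b → P (a * b))
    {g : G} (h : P g) : P g⁻¹ := by
  have hp : ∀ n : ℕ, P (g ^ n) := fun n => by
    induction n with
    | zero => rwa [pow_zero]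
    | succ n ih => rw [pow_succ]; exact hm _ _ ih h
  have e : g⁻¹ = g ^ (orderOf g - 1) := by
    rw [inv_eq_iff_mul_eq_one, ← pow_succ', Nat.sub_add_cancel (orderOf_pos g), pow_orderOf_eq_one]
  exact e ▸ hp _

theorem idx_spec [Finite G] {l A B : List ℕ} {v a : ℕ} {t : G} (c : allL (swB A B) l = true)
    (d : disB A B = true) (hv : v ∈ A) (cv : ltB v (Nat.pow 2 (112 * 1)) = true) (ha : a ∈ l)
    (r : CG.R a (ρ t)) (c1 : mapB a A B = true) (c2 : mapB a B A = true) :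
    ∃ K : Subgroup G, K ≤ clo ρ l ∧ K.relIndex (clo ρ l) = 2 := by
  obtain ⟨x, hx⟩ : ∃ x, VP v x := ⟨_, matData.P_dec (Equiv.refl _) (canon_of_lt cv)⟩
  have dis : ∀ g : G, Mp ρ g A A → Mp ρ g A B → False := fun g h1 h2 => by
    obtain ⟨w, hw, e1⟩ := h1 x ⟨v, hv, hx⟩
    obtain ⟨w', hw', e2⟩ := h2 x ⟨v, hv, hx⟩
    have := notB_iff.mp (allL_iff.mp (allL_iff.mp d w hw) w' hw')
    rw [beq_iff.mpr (VC.vp_key e1 e2)] at this
    exact absurd this (by simp)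
  let S : Subgroup G :=
    { carrier := {g | Mp ρ g A A ∧ Mp ρ g B B}
      one_mem' := ⟨Mp.one, Mp.one⟩
      mul_mem' := fun h1 h2 => ⟨h1.1.mul h2.1, h1.2.mul h2.2⟩
      inv_mem' := fun h => inv_closed (P := fun g => Mp ρ g A A ∧ Mp ρ g B B) ⟨Mp.one, Mp.one⟩
        (fun _ _ h1 h2 => ⟨h1.1.mul h2.1, h1.2.mul h2.2⟩) h }
  have hS : ∀ g, g ∈ S ↔ Mp ρ g A A ∧ Mp ρ g B B := fun g => Iff.rfl
  have hmul : ∀ g k : G, ((Mp ρ g A A ∧ Mp ρ g B B) ∨ (Mp ρ g A B ∧ Mp ρ g B A)) →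
      ((Mp ρ k A A ∧ Mp ρ k B B) ∨ (Mp ρ k A B ∧ Mp ρ k B A)) →
      ((Mp ρ (g * k) A A ∧ Mp ρ (g * k) B B) ∨ (Mp ρ (g * k) A B ∧ Mp ρ (g * k) B A)) := by
    rintro g k (h1 | h1) (h2 | h2)
    · exact Or.inl ⟨h1.1.mul h2.1, h1.2.mul h2.2⟩
    · exact Or.inr ⟨h1.2.mul h2.1, h1.1.mul h2.2⟩
    · exact Or.inr ⟨h1.1.mul h2.1, h1.2.mul h2.2⟩
    · exact Or.inl ⟨h1.2.mul h2.1, h1.1.mul h2.2⟩
  have key : ∀ g ∈ clo ρ l, (Mp ρ g A A ∧ Mp ρ g B B) ∨ (Mp ρ g A B ∧ Mp ρ g B A) := by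
    intro g hg
    induction hg using closure_induction with
    | mem g h =>
      obtain ⟨b, hb, s⟩ := h
      rcases orB_iff.mp (allL_iff.mp c b hb) with e | e
      · exact Or.inl ⟨map_spec s (andB_iff.mp e).1, map_spec s (andB_iff.mp e).2⟩
      · exact Or.inr ⟨map_spec s (andB_iff.mp e).1, map_spec s (andB_iff.mp e).2⟩
    | one => exact Or.inl ⟨Mp.one, Mp.one⟩
    | mul g k _ _ i1 i2 => exact hmul g k i1 i2
    | inv g _ i =>
      exact inv_closed (P := fun g => (Mp ρ g A A ∧ Mp ρ g B B) ∨ (Mp ρ g A B ∧ Mp ρ g B A))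
        (Or.inl ⟨Mp.one, Mp.one⟩) hmul i
  have t1 := map_spec r c1
  have t2 := map_spec r c2
  have tm := mem_clo ha r
  refine ⟨clo ρ l ⊓ S, inf_le_left, relIndex_eq_two_iff.mpr ⟨t, tm, fun b hb => ?_⟩⟩
  rcases key b hb with h | h
  · exact Or.inr ⟨⟨hb, (hS b).mpr h⟩, fun e => dis _ ((hS _).mp e.2).1 (h.2.mul t1)⟩
  · exact Or.inl ⟨⟨mul_mem hb tm, (hS _).mpr ⟨h.2.mul t1, h.1.mul t2⟩⟩,
      fun e => dis _ ((hS _).mp e.2).1 h.1⟩

/-- A lower bound for the order of an elementary abelian group given by codes. -/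
theorem pow_dvd_clo [Finite G] (hρ : Function.Injective ρ) {l : List ℕ} {b : List Bool} {v k : ℕ}
    {its : List Item} (hl : ∀ a ∈ l, MemC ρ ⊤ a) (hp : (valL b 1).Prime)
    (c : abB (valL b 1) l = true) (cv : ltB v (Nat.pow 2 (112 * 1)) = true)
    (c1 : allL (cosB l [] v b b) its = true) (c2 : incB (its.map fun it => it.2.1) 0 = true)
    (c3 : valL b 1 ^ k < (its.map fun it => it.2.1).length) :
    valL b 1 ^ (k + 1) ∣ Nat.card (clo ρ l) := by
  have := Fact.mk hp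
  obtain ⟨x, hx⟩ : ∃ x, VP v x := ⟨_, matData.P_dec (Equiv.refl _) (canon_of_lt cv)⟩
  have hG := pKC G ρ hρ (clo ρ l) ⊥ l [] v x b b (memC_clo hl) (fun a ha => absurd ha List.not_mem_nil)
    hx hp hp its c1
  have hV := (pVC G ρ _ _ ⊥ x _ _ _ (pINC _ _ c2) hG bot_le le_rfl
    (fun z hz => by rw [mem_bot.mp hz, map_one, one_smul])).1
  obtain ⟨n, hn⟩ := (ab_spec hρ c).exists_card_eq
  rw [card_bot, mul_one, hn] at hV
  rw [hn]
  exact pow_dvd_pow _ ((Nat.pow_lt_pow_iff_right hp.one_lt).mp (c3.trans_le hV))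

/-- Control of a normalizer. -/
theorem ctl_spec [Finite G] (hρ : Function.Injective ρ) {M : Subgroup G} {X : G}
    {ks L Z : List ℕ} {v m n : ℕ} {b1 b2 : List Bool} {its : List Item}
    (hk : ∀ a ∈ ks, MemC ρ (normalizer ((zpowers X : Subgroup G) : Set G)) a)
    (hL : ∀ a ∈ L, MemC ρ M a)
    (hZ : ∀ a ∈ Z, MemC ρ (normalizer ((zpowers X : Subgroup G) : Set G)) a)
    (hZM : ∀ a ∈ Z, MemC ρ M a) (cf : fixB v Z = true)
    (p1 : (valL b1 1).Prime) (p2 : (valL b2 1).Prime)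
    (c1 : allL (cosB ks L v b1 b2) its = true) (c2 : incB (its.map fun it => it.2.1) 0 = true)
    (c3 : (its.map fun it => it.2.1).length = m) (hm : 0 < m) (hn : n ∣ Nat.card (clo ρ Z))
    (hN : Nat.card (normalizer ((zpowers X : Subgroup G) : Set G)) ≤ m * n)
    (H : Subgroup G) (hH : M ≤ H) :
    (valL b1 1 ∣ Nat.card H ∧ valL b2 1 ∣ Nat.card H) ∨
      Nat.card ↥(H ⊓ normalizer ((zpowers X : Subgroup G) : Set G)) = n := by
  obtain ⟨x, hx, hf⟩ := fix_spec (ρ := ρ) cf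
  have hG := pKC G ρ hρ _ M ks L v x b1 b2 hk hL hx p1 p2 its c1
  obtain ⟨v1, v2⟩ := pVC G ρ _ _ (clo ρ Z) x _ _ _ (pINC _ _ c2) hG (clo_le' hρ hZ)
    (clo_le' hρ hZM) hf
  rw [c3] at v1 v2
  have l1 : n ≤ Nat.card (clo ρ Z) := Nat.le_of_dvd Nat.card_pos hn
  have l2 : Nat.card (clo ρ Z) ≤ n := Nat.le_of_mul_le_mul_left (v1.trans hN) hm
  by_cases hd : valL b1 1 ∣ Nat.card H ∧ valL b2 1 ∣ Nat.card H
  · exact Or.inl hd
  · refine Or.inr ?_
    have e : H ⊓ normalizer ((zpowers X : Subgroup G) : Set G) = clo ρ Z :=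
      le_antisymm (fun g hg => (v2 (hN.trans (Nat.mul_le_mul_left m l1)) g hg.2).resolve_right
        fun t => hd (t H hH hg.1)) (le_inf ((clo_le' hρ hZM).trans hH) (clo_le' hρ hZ))
    rw [e]
    exact le_antisymm l2 l1

theorem eqns_JnK : True := by
  have := @fixB.eq_1
  have := @abB.eq_1
  have := @mapB.eq_1
  have := @swB.eq_1
  have := @disB.eq_1
  have := @clo.eq_1.{0}
  have := @Mp.eq_1.{0}
  trivial

end Cfsg.Agent.H24.JN
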