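import Cfsg.Agent.H17.LPDefs

/-! Project LP, piece EXM12: the simple module of weight `{1, 2}` for `SL₅(2)`. -/

set_option autoImplicit false
set_option maxRecDepth 100000

namespace Cfsg.Agent.H24.LpEx12

open Matrix Cfsg.Agent.H17.LP
open scoped Kronecker

local notation "I3" => Fin 5 × Fin 5 × Fin 5
local notation "v0" => (Pi.single ((0, 0, 1) : I3) (1 : F) + Pi.single ((0, 1, 0) : I3) (1 : F) : I3 → F)

theorem exists_rep : ∃ ρ : Representation F SL5 (I3 → F),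
    ∀ g s, ρ g s = (g.1 ⊗ₖ (g.1 ⊗ₖ g.1)) *ᵥ s :=
  ⟨{ toFun := fun g => Matrix.toLin' (g.1 ⊗ₖ (g.1 ⊗ₖ g.1))
     map_one' := by
      change Matrix.toLin' ((1 : M5) ⊗ₖ ((1 : M5) ⊗ₖ (1 : M5))) = 1
      rw [one_kronecker_one, one_kronecker_one, toLin'_one]; rfl
     map_mul' := fun g h => by
      rw [coe_mul', mul_kronecker_mul, mul_kronecker_mul, toLin'_mul]; rfl }, fun _ _ => rfl⟩

theorem act_v (g : M5) (i j k : Fin 5) : ((g ⊗ₖ (g ⊗ₖ g)) *ᵥ v0) (i, j, k) =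
    g i 0 * (g j 0 * g k 1) + g i 0 * (g j 1 * g k 0) := by
  rw [mulVec_add, mulVec_single_one, mulVec_single_one]
  rfl

theorem act_nest (g : M5) (s : I3 → F) (i j k : Fin 5) : ((g ⊗ₖ (g ⊗ₖ g)) *ᵥ s) (i, j, k) =
    ∑ a, g i a * ∑ b, g j b * ∑ c, g k c * s (a, b, c) := by
  simp only [mulVec, dotProduct, Fintype.sum_prod_type, kroneckerMap_apply, Finset.mul_sum, mul_assoc]

theorem sum_tv (p q i : Fin 5) (f : Fin 5 → F) :
    ∑ a, (1 + single p q (1 : F) : M5) i a * f a = f i + if i = p then f q else 0 := by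
  simp only [Matrix.add_apply, add_mul, Finset.sum_add_distrib, one_apply, single_apply, ite_mul,
    one_mul, zero_mul, Finset.sum_ite_eq, Finset.mem_univ, if_true]
  by_cases h : i = p
  · subst h; simp
  · simp [h, Ne.symm h]

theorem act_tv (p q : Fin 5) (s : I3 → F) (i j k : Fin 5) :
    (((1 + single p q (1 : F) : M5) ⊗ₖ ((1 + single p q (1 : F) : M5) ⊗ₖ
      (1 + single p q (1 : F) : M5))) *ᵥ s) (i, j, k) =
    s (i, j, k) + (if k = p then s (i, j, q) else 0) +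
      (if j = p then s (i, q, k) + if k = p then s (i, q, q) else 0 else 0) +
      if i = p then s (q, j, k) + (if k = p then s (q, j, q) else 0) +
        (if j = p then s (q, q, k) + if k = p then s (q, q, q) else 0 else 0) else 0 := by
  rw [act_nest]
  simp only [sum_tv]

theorem X_eq : ∀ p : Fin 4, (X (p + 1) (p + 1 + 1)).1 = 1 + single p.castSucc p.succ (1 : F) := by
  decide +kernel

theorem exists_fixed (S : Submodule F (I3 → F))
    (hS : ∀ g : SL5, ∀ s ∈ S, (g.1 ⊗ₖ (g.1 ⊗ₖ g.1)) *ᵥ s ∈ S) (h : ℕ) :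
    ∀ s ∈ S, s ≠ 0 → (∀ i j k : Fin 5, h ≤ i.val + j.val + k.val → s (i, j, k) = 0) →
      ∃ t ∈ S, t ≠ 0 ∧ ∀ p : Fin 4, ((1 + single p.castSucc p.succ (1 : F) : M5) ⊗ₖ
        ((1 + single p.castSucc p.succ (1 : F) : M5) ⊗ₖ
          (1 + single p.castSucc p.succ (1 : F) : M5))) *ᵥ t = t := by
  induction h with
  | zero => exact fun s _ h0 h1 => absurd (funext fun ⟨i, j, k⟩ => h1 i j k (Nat.zero_le _)) h0
  | succ h ih =>
    intro s hs h0 h1
    by_contra hc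
    obtain ⟨p, hp⟩ := not_forall.1 fun e => hc ⟨s, hs, h0, e⟩
    refine hc (ih _ (S.sub_mem (X_eq p ▸ hS (X (p + 1) (p + 1 + 1)) s hs) hs) (sub_ne_zero.2 hp)
      fun i j k hh => ?_)
    have e1 : p.castSucc.val = p.val := rfl
    have e2 : p.succ.val = p.val + 1 := rfl
    rw [Pi.sub_apply, act_tv, add_assoc, add_assoc, add_sub_cancel_left]
    split_ifs with c1 c2 c3 c3 c2 c3 c3 <;>
      simp only [Fin.ext_iff, e1] at c1 c2 c3 <;>
      simp (disch := omega) only [h1, add_zero]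

theorem cases3 : ∀ i j k : Fin 5, j = k ∨ (∃ p : Fin 4,
    (i = p.succ ∧ j ≠ p.castSucc ∧ k ≠ p.castSucc) ∨ (j = p.succ ∧ i ≠ p.castSucc ∧ k ≠ p.castSucc) ∨
    (k = p.succ ∧ i ≠ p.castSucc ∧ j ≠ p.castSucc)) ∨ (i, j, k) ∈ ([(0, 0, 1), (0, 1, 0), (0, 1, 2),
      (0, 2, 1), (1, 0, 2), (1, 2, 0), (1, 0, 1), (1, 1, 0), (2, 0, 1), (2, 1, 0)] : List I3) := by
  decide +kernel

theorem three : ∀ x : F, x + x + x = 0 → x = 0 := by decide

theorem fixed_eq (t : I3 → F) (h1 : ∀ i j k, t (i, j, k) = t (i, k, j)) (h2 : ∀ i j, t (i, j, j) = 0)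
    (h3 : ∀ i j k, t (i, j, k) + t (j, k, i) + t (k, i, j) = 0) (h0 : t ≠ 0)
    (h : ∀ p : Fin 4, ((1 + single p.castSucc p.succ (1 : F) : M5) ⊗ₖ
        ((1 + single p.castSucc p.succ (1 : F) : M5) ⊗ₖ
          (1 + single p.castSucc p.succ (1 : F) : M5))) *ᵥ t = t) : t = v0 := by
  have E := fun (p : Fin 4) (i j k : Fin 5) =>
    (act_tv p.castSucc p.succ t i j k).symm.trans (congrFun (h p) (i, j, k))
  have A : ∀ (p : Fin 4) j k, j ≠ p.castSucc → k ≠ p.castSucc → t (p.succ, j, k) = 0 :=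
    fun p j k hj hk => by simpa [hj, hk] using E p p.castSucc j k
  have B : ∀ (p : Fin 4) i k, i ≠ p.castSucc → k ≠ p.castSucc → t (i, p.succ, k) = 0 :=
    fun p i k hi hk => by simpa [hi, hk] using E p i p.castSucc k
  have C : ∀ (p : Fin 4) k, k ≠ p.castSucc →
      t (p.castSucc, p.succ, k) = t (p.succ, p.castSucc, k) := fun p k hk => by
    have e := E p p.castSucc p.castSucc k
    rw [if_neg hk, if_pos rfl, if_neg hk, if_pos rfl, if_neg hk, if_neg hk,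
      A p p.succ k (Fin.castSucc_lt_succ (i := p)).ne' hk] at e
    simp only [if_true, add_zero, add_assoc, add_eq_left] at e
    rw [eq_neg_of_add_eq_zero_left e, ZMod.neg_eq_self_mod_two]
  have c1 : t (0, 1, 2) = t (1, 0, 2) := C 0 2 (by decide)
  have c2 : t (0, 1, 1) = t (1, 0, 1) := C 0 1 (by decide)
  have c3 : t (1, 2, 0) = t (2, 1, 0) := C 1 0 (by decide)
  have z1 : t (0, 1, 2) = 0 := three _ (by
    have e := h3 0 1 2
    rwa [h1 2 0 1, ← c3, h1 1 2 0, ← c1] at e)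
  have z2 : t (1, 0, 1) = 0 := by rw [← c2, h2]
  have Z : ∀ i j k, (i, j, k) ≠ ((0, 0, 1) : I3) → (i, j, k) ≠ ((0, 1, 0) : I3) → t (i, j, k) = 0 := by
    intro i j k n1 n2
    rcases cases3 i j k with rfl | ⟨p, ⟨rfl, a, b⟩ | ⟨rfl, a, b⟩ | ⟨rfl, a, b⟩⟩ | e
    · exact h2 _ _
    · exact A p _ _ a b
    · exact B p _ _ a b
    · rw [h1]; exact B p _ _ a b
    · simp only [List.mem_cons, List.not_mem_nil, or_false] at e
      rcases e with e | e | e | e | e | e | e | e | e | e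
      · exact absurd e n1
      · exact absurd e n2
      · rw [e, z1]
      · rw [e, h1, z1]
      · rw [e, ← c1, z1]
      · rw [e, h1, ← c1, z1]
      · rw [e, z2]
      · rw [e, h1, z2]
      · rw [e, h1, ← c3, h1, ← c1, z1]
      · rw [e, ← c3, h1, ← c1, z1]
  have o1 : t (0, 0, 1) = 1 := by
    have : ∀ x : F, x ≠ 0 → x = 1 := by decide
    refine this _ fun e => h0 (funext fun ⟨i, j, k⟩ => ?_)
    by_cases n1 : (i, j, k) = ((0, 0, 1) : I3)
    · rw [n1, e]; rfl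
    by_cases n2 : (i, j, k) = ((0, 1, 0) : I3)
    · rw [n2, h1, e]; rfl
    exact Z i j k n1 n2
  funext ⟨i, j, k⟩
  by_cases n1 : (i, j, k) = ((0, 0, 1) : I3)
  · rw [n1, o1]; decide
  by_cases n2 : (i, j, k) = ((0, 1, 0) : I3)
  · rw [n2, h1, o1]; decide
  rw [Z i j k n1 n2, Pi.add_apply, Pi.single_eq_of_ne n1, Pi.single_eq_of_ne n2, add_zero]

theorem exists_perm (i j : Fin 5) (h : i ≠ j) : ∃ g : SL5, ∀ a,
    g.1 a 0 = (if a = i then 1 else 0) ∧ g.1 a 1 = if a = j then 1 else 0 := by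
  have h1 : ∀ i j : Fin 5, i ≠ j → ∃ a : Fin 5,
      (Equiv.swap 1 a * Equiv.swap 0 i) i = 0 ∧ (Equiv.swap 1 a * Equiv.swap 0 i) j = 1 := by
    decide +kernel
  obtain ⟨a, e1, e2⟩ := h1 i j h
  generalize Equiv.swap 1 a * Equiv.swap 0 i = σ at e1 e2
  refine ⟨⟨σ.permMatrix F, ?_⟩, fun b => ⟨?_, ?_⟩⟩
  · rw [det_permutation]
    rcases Int.units_eq_one_or (Equiv.Perm.sign σ) with e | e <;> rw [e] <;> decide
  · simp [Equiv.Perm.permMatrix, PEquiv.toMatrix_apply, ← e1]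
  · simp [Equiv.Perm.permMatrix, PEquiv.toMatrix_apply, ← e2]

theorem wt0 : (∀ i ∈ [1, 2, 3, 4], ∀ a b c : Fin 5, (X i (i + 1)).1 a 0 *
      ((X i (i + 1)).1 b 0 * (X i (i + 1)).1 c 1) + (X i (i + 1)).1 a 0 *
      ((X i (i + 1)).1 b 1 * (X i (i + 1)).1 c 0) = v0 (a, b, c)) ∧
    (∀ i ∈ [3, 4], ∀ a b c : Fin 5, (X (i + 1) i).1 a 0 *
      ((X (i + 1) i).1 b 0 * (X (i + 1) i).1 c 1) + (X (i + 1) i).1 a 0 *
      ((X (i + 1) i).1 b 1 * (X (i + 1) i).1 c 0) = v0 (a, b, c)) ∧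
    ∀ i ∈ [1, 2], ∀ a b c : Fin 5, (X (i + 1) i).1 a 0 *
      ((X (i + 1) i).1 b 0 * (X (i + 1) i).1 c 1) + (X (i + 1) i).1 a 0 *
      ((X (i + 1) i).1 b 1 * (X (i + 1) i).1 c 0) + ((X i (i + 1) * X (i + 1) i).1 a 0 *
      ((X i (i + 1) * X (i + 1) i).1 b 0 * (X i (i + 1) * X (i + 1) i).1 c 1) +
      (X i (i + 1) * X (i + 1) i).1 a 0 *
      ((X i (i + 1) * X (i + 1) i).1 b 1 * (X i (i + 1) * X (i + 1) i).1 c 0)) = v0 (a, b, c) := by
  decide +kernel

theorem exMod12 : ExMod [1, 2] := by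
  obtain ⟨ρ, hρ⟩ := exists_rep
  let W : Submodule F (I3 → F) := Submodule.span F (Set.range fun g => ρ g v0)
  have hW : ∀ g, W ≤ W.comap (ρ g) := fun g => Submodule.span_le.2 (by
    rintro _ ⟨h, rfl⟩
    exact Submodule.subset_span ⟨g * h, by simp⟩)
  have hv : v0 ∈ W := Submodule.subset_span ⟨1, by simp⟩
  have hv0 : v0 ≠ 0 := fun e => absurd (congrFun e (0, 0, 1)) (by decide)
  have hK : ∀ t ∈ W, (∀ i j k, t (i, j, k) = t (i, k, j)) ∧ (∀ i j, t (i, j, j) = 0) ∧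
      ∀ i j k, t (i, j, k) + t (j, k, i) + t (k, i, j) = 0 := by
    intro t ht
    induction ht using Submodule.span_induction with
    | mem x hx =>
      obtain ⟨g, rfl⟩ := hx
      have two : (2 : F) = 0 := rfl
      simp only [hρ, act_v]
      refine ⟨fun i j k => by ring, fun i j => ?_, fun i j k => ?_⟩
      · linear_combination (g.1 i 0 * g.1 j 0 * g.1 j 1) * two
      · linear_combination (g.1 i 0 * g.1 j 0 * g.1 k 1 + g.1 i 0 * g.1 j 1 * g.1 k 0 +
          g.1 i 1 * g.1 j 0 * g.1 k 0) * two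
    | zero => simp
    | add x y _ _ hx hy =>
      refine ⟨fun i j k => ?_, fun i j => ?_, fun i j k => ?_⟩
      · rw [Pi.add_apply, Pi.add_apply, hx.1, hy.1]
      · rw [Pi.add_apply, hx.2.1, hy.2.1, add_zero]
      · simp only [Pi.add_apply]
        linear_combination hx.2.2 i j k + hy.2.2 i j k
    | smul a x _ hx =>
      refine ⟨fun i j k => ?_, fun i j => ?_, fun i j k => ?_⟩
      · rw [Pi.smul_apply, Pi.smul_apply, hx.1]
      · rw [Pi.smul_apply, hx.2.1, smul_zero]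
      · simp only [Pi.smul_apply, smul_eq_mul]
        linear_combination a * hx.2.2 i j k
  refine ⟨W, inferInstance, inferInstance, inferInstance, ρ.subrepresentation W hW, ⟨v0, hv⟩,
    ⟨⟨⟨v0, hv⟩, 0, fun e => hv0 (congrArg Subtype.val e)⟩, fun S hS => ?_⟩,
    ⟨fun e => hv0 (congrArg Subtype.val e), fun i hi => ?_, fun i hi => ?_⟩, ?_⟩
  · refine or_iff_not_imp_left.2 fun h0 => ?_
    obtain ⟨s, hs, s0⟩ := Submodule.exists_mem_ne_zero_of_ne_bot h0
    have hS' : ∀ g : SL5, ∀ x ∈ S.map W.subtype, ρ g x ∈ S.map W.subtype := by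
      rintro g _ ⟨x, hx, rfl⟩
      exact ⟨_, hS g x hx, rfl⟩
    obtain ⟨t, ht, t0, tf⟩ := exists_fixed (S.map W.subtype) (fun g x hx => hρ g x ▸ hS' g x hx) 13
      s ⟨s, hs, rfl⟩ (fun e => s0 (Subtype.ext e)) fun i j k hh => by omega
    have htW : t ∈ W := by
      obtain ⟨x, -, rfl⟩ := ht
      exact x.2
    obtain ⟨k1, k2, k3⟩ := hK t htW
    rw [fixed_eq t k1 k2 k3 t0 tf] at ht
    have hle : W ≤ S.map W.subtype := Submodule.span_le.2 (by
      rintro _ ⟨g, rfl⟩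
      exact hS' g _ ht)
    refine eq_top_iff.2 fun x _ => ?_
    obtain ⟨y, hy, e⟩ := hle x.2
    exact (Subtype.ext e : y = x) ▸ hy
  · refine Subtype.ext (funext fun ⟨a, b, c⟩ => ?_)
    change ρ _ v0 (a, b, c) = _
    rw [hρ, act_v]
    exact wt0.1 i hi a b c
  · by_cases h12 : i ∈ [1, 2]
    · rw [if_pos (decide_eq_true h12)]
      refine Subtype.ext (funext fun ⟨a, b, c⟩ => ?_)
      change ρ _ v0 (a, b, c) + ρ _ v0 (a, b, c) = _
      rw [hρ, hρ, act_v, act_v]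
      exact wt0.2.2 i h12 a b c
    · rw [if_neg (by simpa using h12)]
      refine Subtype.ext (funext fun ⟨a, b, c⟩ => ?_)
      change ρ _ v0 (a, b, c) = _
      rw [hρ, act_v]
      exact wt0.2.1 i (by simp at hi h12 ⊢; omega) a b c
  · let π : W →ₗ[F] ({p : Fin 5 × Fin 5 // p.1 ≠ p.2} → F) :=
      LinearMap.pi fun p => (LinearMap.proj (p.1.1, p.1.1, p.1.2)).comp W.subtype
    have hπ : Function.Surjective π := by
      rw [← LinearMap.range_eq_top, eq_top_iff, ← (Pi.basisFun F _).span_eq, Submodule.span_le]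
      rintro _ ⟨⟨⟨i, j⟩, hij⟩, rfl⟩
      obtain ⟨g, hg⟩ := exists_perm i j hij
      refine ⟨⟨ρ g v0, Submodule.subset_span ⟨g, rfl⟩⟩, funext fun ⟨⟨a, b⟩, hab⟩ => ?_⟩
      change ρ g v0 (a, a, b) = _
      rw [hρ, act_v, (hg a).1, (hg a).2, (hg b).1, (hg b).2, Pi.basisFun_apply, Pi.single_apply]
      have hij' : i ≠ j := hij
      by_cases c1 : a = i
      · subst c1
        by_cases c2 : b = j
        · subst c2; simp [hij']
        · simp [hij', c2]
      · simp [c1]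
    have h1 := Nat.card_le_card_of_surjective π hπ
    rw [Nat.card_fun, Nat.card_eq_fintype_card, Nat.card_eq_fintype_card, ZMod.card,
      show Fintype.card {p : Fin 5 × Fin 5 // p.1 ≠ p.2} = 20 by decide +kernel] at h1
    omega

end Cfsg.Agent.H24.LpEx12
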