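import Cfsg.Agent.H27.SympSimple
import Cfsg.Agent.H42.Kern

/-!
# Explicit elements of `Sp₄(3)`
-/

set_option autoImplicit false
set_option maxRecDepth 100000

namespace Cfsg.Agent.H24.U42

open Matrix Subgroup Cfsg.Agent.H27 Cfsg.Agent.H42

abbrev V : Type := Fin 2 ⊕ Fin 2 → ZMod 3
abbrev L : Type := symplecticGroup (Fin 2) (ZMod 3)

/-- The vector with a given number. -/
def dec (n : ℕ) : V := Sum.elim ![(n : ZMod 3), (n / 3 : ℕ)] ![(n / 9 : ℕ), (n / 27 : ℕ)]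

/-- The number of a vector. -/
def enc (v : V) : ℕ := (v (.inl 0)).val + 3 * (v (.inl 1)).val + 9 * (v (.inr 0)).val + 27 * (v (.inr 1)).val

theorem enc_dec : ∀ n < 81, enc (dec n) = n := by decide +kernel
theorem dec_enc : ∀ v : V, enc v < 81 ∧ dec (enc v) = v := by decide +kernel

/-- The two generators. -/
def gen (i : ℕ) : L := if i = 0 then spTv (dec 1) 1 else
  ⟨fromBlocks !![2, 1; 0, 2] !![1, 2; 0, 1] !![0, 2; 2, 0] !![2, 1; 0, 2],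
    SymplecticGroup.mem_iff.2 (by decide +kernel)⟩

/-- The action of the generators on the numbers. -/
def tab (i n : ℕ) : ℕ := fld 7 (if i = 0 then
  0x4f9d4264b9b2644a8b1e342890dfc180f9ebc76e9cb86ed9a336ac58325cb57aa58ad3a9509132546890a03e78e9c3664c1a2c54b932450791203070d122c5080e182840608080
  else 0x3f149a69562f4421944973a0a7a29058dc11b84354d030d03a378252c12ec260f571ca2d921103934ce7813ad862888ca59644f8324802cfbb06aa3115f209a78639ace3271c00) n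

/-- The value of a word. -/
def ev (w : List ℕ) : L := (w.map gen).prod

/-- The action of a word. -/
noncomputable def act (w : List ℕ) (n : ℕ) : ℕ := List.rec n (fun i _ ih => force ih (tab i)) w

/-- The action of a power of a word. -/
noncomputable def actp (w : List ℕ) (k n : ℕ) : ℕ := Nat.rec n (fun _ ih => force ih (act w)) k

/-- `f` describes the action of `g`. -/
def Ac (g : L) (f : ℕ → ℕ) : Prop := ∀ n < 81, f n < 81 ∧ g.1 *ᵥ dec n = dec (f n)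

theorem ac_gen0 : Ac (gen 0) (tab 0) := by unfold Ac; decide +kernel
theorem ac_gen1 : Ac (gen 1) (tab 1) := by unfold Ac; decide +kernel

theorem ac_gen (i : ℕ) : Ac (gen i) (tab i) := by
  rcases eq_or_ne i 0 with rfl | h
  · exact ac_gen0
  · have e1 : gen i = gen 1 := by simp [gen, h]
    have e2 : tab i = tab 1 := by ext n; simp [tab, h]
    rw [e1, e2]; exact ac_gen1

theorem Ac.one : Ac 1 id := fun _ hn => ⟨hn, one_mulVec _⟩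

theorem Ac.mul {g h : L} {f f' : ℕ → ℕ} (a : Ac g f) (b : Ac h f') : Ac (g * h) fun n => f (f' n) :=
  fun n hn => ⟨(a _ (b n hn).1).1, by
    rw [← (a _ (b n hn).1).2, ← (b n hn).2, mulVec_mulVec]; rfl⟩

theorem ac (w : List ℕ) : Ac (ev w) (act w) := by
  induction w with
  | nil => exact Ac.one
  | cons i w ih =>
    have : act (i :: w) = fun n => tab i (act w n) := funext fun n => force_eq _ _
    rw [this]
    exact (ac_gen i).mul ih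

theorem acp (w : List ℕ) (k : ℕ) : Ac (ev w ^ k) (actp w k) := by
  induction k with
  | zero => exact Ac.one
  | succ k ih =>
    have : actp w (k + 1) = fun n => act w (actp w k n) := funext fun n => force_eq _ _
    rw [this, pow_succ']
    exact (ac w).mul ih

theorem Ac.ext {g h : L} {f f' : ℕ → ℕ} (a : Ac g f) (b : Ac h f')
    (e : ∀ n ∈ [1, 3, 9, 27], f n = f' n) : g = h := by
  have k : ∀ j, ∃ n ∈ [1, 3, 9, 27], n < 81 ∧ dec n = Pi.single j 1 := by decide +kernel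
  refine Subtype.ext (Matrix.ext fun i j => ?_)
  obtain ⟨n, h1, h2, h3⟩ := k j
  have := (a n h2).2.trans ((congrArg dec (e n h1)).trans (b n h2).2.symm)
  rw [h3, mulVec_single_one, mulVec_single_one] at this
  exact congrFun this i

theorem Ac.ne {g h : L} {f f' : ℕ → ℕ} (a : Ac g f) (b : Ac h f') (e : ∃ n < 81, f n ≠ f' n) :
    g ≠ h := by
  rintro rfl
  obtain ⟨n, hn, e⟩ := e
  exact e (by rw [← enc_dec _ (a n hn).1, ← (a n hn).2, (b n hn).2, enc_dec _ (b n hn).1])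

theorem ev_append (u w : List ℕ) : ev (u ++ w) = ev u * ev w := by simp [ev]

theorem ev_mem {H : Subgroup L} (h0 : gen 0 ∈ H) (h1 : gen 1 ∈ H) (w : List ℕ) : ev w ∈ H := by
  refine list_prod_mem fun g hg => ?_
  obtain ⟨i, -, rfl⟩ := List.mem_map.1 hg
  rcases eq_or_ne i 0 with rfl | h
  · exact h0
  · rwa [show gen i = gen 1 by simp [gen, h]]

/-- Words moving the first basis vector. -/
def orb : List (List ℕ) :=
  [[], [], [1, 1, 0, 1, 1, 0, 1, 1], [1, 1, 1, 1, 1, 1], [1, 1, 0, 0, 1, 1], [1, 0, 1, 1, 1, 0, 1,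
  1, 1], [1, 0, 0, 1, 1, 0, 1, 0, 1, 1], [1, 0, 1, 1, 1, 1, 0, 1, 0, 1, 1], [1, 0, 0, 1, 1, 0, 1,
  1], [0, 0, 1, 0, 1, 1], [1, 0, 1, 1], [0, 1, 0, 1, 1], [1, 1, 1, 0, 1, 0, 1, 1, 1], [0, 1, 1, 1,
  0, 1, 0, 1, 1, 1], [1, 1, 0, 0, 1, 1, 0, 1, 0, 1, 1], [1, 1, 1, 1, 1], [1, 0, 1, 1, 1], [0, 1, 0,
  1, 1, 1], [0, 1, 0, 0, 1, 0, 1, 1], [1, 0, 0, 1, 0, 1, 1], [1, 1, 1, 0, 1, 0, 0, 1, 1], [0, 0, 1,
  1, 0, 1, 0, 1, 1], [0, 1, 1, 0, 1, 0, 1, 1], [1, 1, 0, 1, 0, 1, 1], [0, 1, 1, 1, 1, 1, 1, 1], [1,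
  1, 1, 1, 1, 1, 1], [0, 0, 1, 1, 1, 1, 1, 1, 1], [1, 1, 1, 1, 1, 1, 0, 1, 0, 1, 1], [1, 1, 1, 0, 1,
  1, 0, 1, 1], [1, 1, 0, 1, 0, 1, 1, 1], [1, 1, 1, 1, 0, 1, 1, 1], [1, 0, 1, 0, 1, 1, 1], [1, 0, 0,
  1, 0, 0, 1, 1], [1, 1, 1, 0, 1, 1], [1, 1, 1, 0, 1, 0, 1, 1], [1, 1, 1, 1, 1, 1, 1, 0, 1, 1, 1],
  [0, 1, 0, 0, 1, 1], [0, 0, 1, 0, 0, 1, 1], [1, 0, 0, 1, 1], [0, 1, 1, 0, 1, 0, 0, 1, 1], [0, 0, 1,
  1, 0, 1, 0, 0, 1, 1], [1, 1, 0, 1, 0, 0, 1, 1], [0, 1, 1, 1, 1], [0, 0, 1, 1, 1, 1], [1, 1, 1, 1],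
  [0, 0, 1, 0, 1, 0, 1, 1], [0, 1, 0, 1, 0, 1, 1], [1, 0, 1, 0, 1, 1], [1, 0, 1, 0, 1, 0, 1, 1], [1,
  1, 1, 1, 1, 1, 1, 1, 1], [0, 1, 0, 1, 0, 1, 0, 1, 1], [1, 1, 1, 1, 0, 1, 0, 1, 1], [1, 1, 1, 1, 1,
  1, 0, 1, 1, 1], [0, 1, 1, 1, 1, 0, 1, 0, 1, 1], [1, 1, 1, 1, 1, 0, 1, 1, 1], [1, 1, 0, 1, 1, 0, 1,
  0, 1, 1], [1], [1, 0, 1, 0, 0, 1, 1], [1, 0, 0, 1, 1, 1, 0, 1, 1, 1], [1, 1, 0, 1, 1, 1], [1, 1,
  1, 1, 1, 0, 1, 0, 1, 1], [1, 0, 1, 1, 0, 1, 1], [1, 0, 1, 1, 0, 1, 0, 1, 1], [1, 1, 1], [0, 1, 1,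
  1], [0, 0, 1, 1, 1], [1, 1, 1, 0, 1, 1, 1], [0, 1, 1, 1, 0, 1, 1, 1], [0, 0, 1, 1, 1, 0, 1, 1, 1],
  [1, 0, 0, 1, 1, 1], [0, 1, 0, 0, 1, 1, 1], [1, 0, 1, 1, 1, 1], [1, 1, 0, 1, 1], [0, 0, 1, 1, 0, 1,
  1], [0, 1, 1, 0, 1, 1], [1, 1, 1, 1, 1, 1, 1, 1], [1, 0, 0, 1, 0, 1, 0, 1, 1], [0, 1, 1, 1, 1, 1,
  1, 1, 1], [0, 0, 1, 1], [0, 1, 1], [1, 1]]

theorem orb_spec : ∀ n < 81, n = 0 ∨ act (orb.getD n []) 1 = n := by decide +kernel

theorem eq_top {H : Subgroup L} (h0 : gen 0 ∈ H) (h1 : gen 1 ∈ H) : H = ⊤ := by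
  refine sp_eq_top_of_spTv_mem H fun v c => ?_
  have k : spTv v 1 ∈ H := by
    obtain ⟨a, b⟩ := dec_enc v
    rcases orb_spec _ a with e | e
    · rw [← b, e, show dec 0 = 0 by decide +kernel, spTv_zero_vec]; exact one_mem _
    · rw [← b, ← e, ← (ac _ 1 (by norm_num)).2, ← spTv_conj]
      exact mul_mem (mul_mem (ev_mem h0 h1 _) h0) (inv_mem (ev_mem h0 h1 _))
  rcases (by decide : ∀ c : ZMod 3, c = 0 ∨ c = 1 ∨ c = 1 + 1) c with rfl | rfl | rfl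
  · rw [spTv_zero]; exact one_mem _
  · exact k
  · rw [← spTv_mul]; exact mul_mem k k

def wt : List ℕ := [0, 1, 1, 0, 1, 0, 1, 1, 0, 1]
def wa : List ℕ := [1, 0, 1, 1, 1, 0, 1, 1, 1, 0, 1]
def wb : List ℕ := [1, 1, 1, 0, 0, 1, 0, 1, 0, 1, 0, 1, 1]
def wi : List ℕ := [0, 1, 0, 1, 0, 1, 0, 1, 0, 0, 1, 0, 1]
def wj : List ℕ := [0, 1, 1, 0, 0, 1, 0, 0, 1, 1, 1, 1, 1, 0, 0, 1, 0]
def wk : List ℕ := [1, 1, 0, 1, 1, 0, 0, 1, 0, 1, 0, 1, 1, 1, 1, 1, 0, 1, 0]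
def wl : List ℕ := [0, 0, 1, 0, 1, 0, 1, 0, 1, 1, 1, 1, 0, 1, 0, 0, 1, 0, 0]

theorem ev0 : ev [0] = gen 0 := by simp [ev]
theorem ev1 : ev [1] = gen 1 := by simp [ev]

theorem gen1 : Subgroup.closure {ev [0], ev [1]} = ⊤ :=
  eq_top (ev0 ▸ Subgroup.subset_closure (by simp)) (ev1 ▸ Subgroup.subset_closure (by simp))

theorem gen2 : Subgroup.closure {ev wt, ev [1]} = ⊤ := by
  have k : ∀ w : List ℕ, ev (w.flatMap fun i => if i = 0 then wt else [1]) ∈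
      Subgroup.closure {ev wt, ev [1]} := fun w => by
    induction w with
    | nil => exact one_mem _
    | cons i w ih =>
      rw [List.flatMap_cons, ev_append]
      refine mul_mem (Subgroup.subset_closure ?_) ih
      split_ifs <;> simp
  refine eq_top ?_ (ev1 ▸ Subgroup.subset_closure (by simp))
  rw [← ev0, (ac [0]).ext (ac ([0, 1, 0, 1, 1, 0, 1, 1, 1, 1, 1, 1, 0, 1, 1, 1, 1, 1, 0].flatMap
    fun i => if i = 0 then wt else [1])) (by decide +kernel)]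
  exact k _

/-- `g` is conjugate to the powers `g ^ j`, `j ≡ 1 (mod 6)`. -/
def Rat (g : L) : Prop := g ^ 36 = 1 ∧ ∀ i < 6, ∃ z, z * g = g ^ (6 * i + 1) * z

theorem rat_of (w : List ℕ) (zs : List (List ℕ)) (h : (∀ n ∈ [1, 3, 9, 27], actp w 36 n = n) ∧
    ∀ i < 6, ∃ z ∈ zs, ∀ n ∈ [1, 3, 9, 27], act z (act w n) = actp w (6 * i + 1) (act z n)) :
    Rat (ev w) :=
  ⟨(acp w 36).ext Ac.one h.1, fun i hi => (h.2 i hi).elim fun z c =>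
    ⟨ev z, ((ac z).mul (ac w)).ext ((acp w _).mul (ac z)) c.2⟩⟩

theorem rat_c : Rat (ev [0]) := rat_of _ [[]] (by decide +kernel)
theorem rat_t : Rat (ev wt) := rat_of _ [[]] (by decide +kernel)
theorem rat_y : Rat (ev [1]) :=
  rat_of _ [[], [0, 1, 0, 0, 1, 1, 1, 1, 0, 1, 0, 1, 1, 0]] (by decide +kernel)
theorem rat_cy : Rat (ev [0] * ev [1]) := ev_append [0] [1] ▸
  rat_of _ [[], [1, 1, 1, 1, 1, 0, 1, 0, 0, 1, 1, 1, 1, 1, 1],
    [1, 1, 1, 1, 1, 0, 0, 1, 0, 1, 1, 1, 1, 1, 1]] (by decide +kernel)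
theorem rat_ty : Rat (ev wt * ev [1]) := ev_append wt [1] ▸
  rat_of _ [[], [0, 1, 1, 1, 0, 0, 1, 1, 0, 1, 1], [0, 1, 1, 0, 0, 1, 1, 1, 0, 1, 1]]
    (by decide +kernel)

theorem comm_of (u w : List ℕ) (h : ∀ n ∈ [1, 3, 9, 27], act u (act w n) = act w (act u n)) :
    ev u * ev w = ev w * ev u := ((ac u).mul (ac w)).ext ((ac w).mul (ac u)) h

theorem nc_of (u : List ℕ) (h : ∃ n < 81, act [1] (act u n) ≠ act u (act [1] n)) :
    ev u ∉ center L := fun c => ((ac [1]).mul (ac u)).ne ((ac u).mul (ac [1])) h (mem_center_iff.1 c _)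

theorem heis : ∃ a b : L, ev [0] ^ 3 = 1 ∧ ev [0] ∉ center L ∧ a * ev [0] = ev [0] * a ∧
    b * ev [0] = ev [0] * b ∧ a * b = b * a * ev [0] :=
  ⟨ev wa, ev wb, (acp _ 3).ext Ac.one (by decide +kernel), nc_of _ (by decide +kernel),
    comm_of _ _ (by decide +kernel), comm_of _ _ (by decide +kernel),
    ((ac _).mul (ac _)).ext (((ac _).mul (ac _)).mul (ac _)) (by decide +kernel)⟩

theorem quat : ∃ i j k l m : L, i ^ 2 = ev wt ∧ i ^ 4 = 1 ∧ ev wt ∉ center L ∧ j * i = i ^ 3 * j ∧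
    k * i = i * k ∧ l * i = i * l ∧ k * l = l * k * (i ^ 2 * m) ∧ m ∈ center L ∧ m ^ 2 = 1 := by
  refine ⟨ev wi, ev wj, ev wk, ev wl, ev [0, 1] ^ 9, (acp _ 2).ext (ac _) (by decide +kernel),
    (acp _ 4).ext Ac.one (by decide +kernel), nc_of _ (by decide +kernel),
    ((ac _).mul (ac _)).ext ((acp _ 3).mul (ac _)) (by decide +kernel),
    comm_of _ _ (by decide +kernel), comm_of _ _ (by decide +kernel),
    ((ac _).mul (ac _)).ext (((ac _).mul (ac _)).mul ((acp _ 2).mul (acp _ 9))) (by decide +kernel),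
    mem_center_sp_iff.2 ⟨-1, fun v => ?_⟩,
    by rw [← pow_mul]; exact (acp _ 18).ext Ac.one (by decide +kernel)⟩
  obtain ⟨a, b⟩ := dec_enc v
  rw [← b, (acp [0, 1] 9 _ a).2]
  exact (by decide +kernel : ∀ n < 81, dec (actp [0, 1] 9 n) = (-1 : ZMod 3) • dec n) _ a

theorem eqns_U42a : True := by
  have := @dec.eq_1
  have := @enc.eq_1
  have := @gen.eq_1
  have := @tab.eq_1
  have := @ev.eq_1
  have := @act.eq_1
  have := @actp.eq_1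
  have := @Ac.eq_1
  have := @orb.eq_1
  have := @wt.eq_1
  have := @wa.eq_1
  have := @wb.eq_1
  have := @wi.eq_1
  have := @wj.eq_1
  have := @wk.eq_1
  have := @wl.eq_1
  have := @Rat.eq_1
  trivial

end Cfsg.Agent.H24.U42
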